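/-
General statements about subgroups of `GL` with few normal subgroups: normalisers of absolutely irreducible
`r`-groups, and maximal subgroups do not cover modulo scalars.
-/
import Cfsg.Agent.Lib.Asch.Main

set_option autoImplicit false

namespace Cfsg.Agent.Lib.CmaxS.Gen

open Matrix Module Cfsg Cfsg.Geo
open Cfsg.Agent.Lib.Asch.SC Cfsg.Agent.Lib.Asch.GT Cfsg.Agent.Lib.Asch.Res
open scoped MatrixGroups

universe u

variable {ι : Type} [Fintype ι] [DecidableEq ι] {F : Type u} [Field F]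

/-- Commutators in a group inside scalars times `N`. -/
theorem perfect_le {I N : Subgroup (GL ι F)} (hperf : ⁅I, I⁆ = I) (h : I ≤ N ⊔ scalars ι F) : I ≤ N := by
  have h1 : ⁅I, I⁆ ≤ ⁅N ⊔ scalars ι F, N ⊔ scalars ι F⁆ := Subgroup.commutator_mono h h
  have h2 := commutator_sup_central (scalars_le_center (ι := ι) (F := F)) N N
  have h3 : ⁅N, N⁆ ≤ N := Subgroup.commutator_le.2 fun a ha b hb =>
    N.mul_mem (N.mul_mem (N.mul_mem ha hb) (N.inv_mem ha)) (N.inv_mem hb)
  rw [hperf] at h1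
  exact h1.trans (h2.trans h3)

/-- A maximal subgroup of a perfect subgroup does not cover it modulo scalars. -/
theorem proper_of_perfect {I H : Subgroup (GL ι F)} (hperf : ⁅I, I⁆ = I) (hH : IsMaximalIn I H) :
    H ⊔ (scalars ι F ⊓ I) ≠ I := by
  intro h
  have h1 : I ≤ H := by
    apply perfect_le hperf
    calc I = H ⊔ (scalars ι F ⊓ I) := h.symm
      _ ≤ H ⊔ scalars ι F := sup_le_sup_left inf_le_left _
  exact absurd h1 (not_le_of_gt hH.1)

/-- A subgroup with few normal subgroups does not normalise an absolutely irreducible `r`-group. -/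
theorem not_le_normalizer_gen [Nonempty ι] {I R : Subgroup (GL ι F)} {r : ℕ}
    (hnormal : ∀ N : Subgroup (GL ι F), N ≤ I → (∀ g ∈ I, ∀ x ∈ N, g * x * g⁻¹ ∈ N) →
      N ≤ scalars ι F ∨ I ≤ N ⊔ scalars ι F)
    (hperf : ⁅I, I⁆ = I) (hA : ActsAbsolutelyIrreducibly (matrixSet R)) (hP : IsPGroup r R)
    {t : GL ι F} (htI : t ∈ I) (hts : t ∉ scalars ι F) (hto : ∀ k : ℕ, t ^ (r ^ k) ≠ 1)
    (hy : ∀ x ∈ R, x * t * x⁻¹ * t⁻¹ ∈ I)
    (hfix : ∀ x ∈ R, ∃ w : ι → F, w ≠ 0 ∧ ((x * t * x⁻¹ * t⁻¹ : GL ι F) : Matrix ι ι F) *ᵥ w = w) :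
    ¬ I ≤ subgroupNormalizer R := by
  intro hle
  have hnorm : ∀ g ∈ I, ∀ x ∈ R, g * x * g⁻¹ ∈ R := fun g hg x hx =>
    (Subgroup.mem_normalizer_iff.1 (hle hg) x).1 hx
  rcases hnormal (R ⊓ I) inf_le_right (fun g hg x hx =>
      ⟨hnorm g hg x hx.1, I.mul_mem (I.mul_mem hg hx.2) (I.inv_mem hg)⟩) with h | h
  · apply hts
    apply mem_scalars_of_comm hA
    intro x hx
    have h1 : x * t * x⁻¹ * t⁻¹ ∈ R := by
      have h2 := hnorm t htI x⁻¹ (R.inv_mem hx)
      have h3 := R.mul_mem hx h2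
      simpa [mul_assoc] using h3
    have h2 := h ⟨h1, hy x hx⟩
    obtain ⟨c, hc⟩ := (mem_scalars_iff _).1 h2
    obtain ⟨w, hw0, hw⟩ := hfix x hx
    rw [hc, Matrix.smul_mulVec, Matrix.one_mulVec] at hw
    have hc1 : (c : F) = 1 := by
      have h3 : ((c : F) - 1) • w = 0 := by
        rw [sub_smul, hw, one_smul, sub_self]
      rcases smul_eq_zero.1 h3 with h4 | h4
      · linear_combination h4
      · exact absurd h4 hw0
    have h3 : x * t * x⁻¹ * t⁻¹ = 1 := by
      apply Units.ext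
      rw [hc, hc1, one_smul, Units.val_one]
    have h4 : x * t = t * x := by
      calc x * t = (x * t * x⁻¹ * t⁻¹) * (t * x) := by group
        _ = t * x := by rw [h3, one_mul]
    exact h4.symm
  · have h1 : I ≤ R ⊓ I := perfect_le hperf h
    have h2 : t ∈ R := (h1 htI).1
    obtain ⟨k, hk⟩ := hP ⟨t, h2⟩
    apply hto k
    have := congrArg Subtype.val hk
    simpa using this

end Cfsg.Agent.Lib.CmaxS.Gen
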