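/-
The geometric classes of the symplectic groups do not contain the whole symplectic group.
-/
import Cfsg.Agent.Lib.Geo.SpDecomp
import Cfsg.Agent.Lib.Geo.SpFrames
import Cfsg.Agent.Lib.Geo.SpOrth
import Cfsg.Agent.Lib.CmaxL.Proper2
import Cfsg.Agent.Lib.NotMax.Tensor

set_option autoImplicit false
set_option linter.unusedSectionVars false
set_option linter.style.haveILetI false

namespace Cfsg.Agent.Lib.CmaxS.Proper

open Matrix Module Cfsg Cfsg.Geo Cfsg.Agent.Lib.Geo.Basic Cfsg.Agent.Lib.Geo.SympInSL Cfsg.Agent.Lib.Geo.SpBase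
open Cfsg.Agent.Lib.NotMax.Tensor
open scoped MatrixGroups

universe u

variable {ι : Type} [Fintype ι] [DecidableEq ι] {F : Type u} [Field F]
variable {f : (ι → F) → (ι → F) → F} {hf : IsSymplecticForm f} {I : Subgroup (GL ι F)}

/-- The general maximality step. -/
theorem eq_inf_of_le {H M : Subgroup (GL ι F)} (hH : IsMaximalIn I H) (hHM : H ≤ M)
    (hne : ¬ I ≤ M) : H = M ⊓ I := by
  have h1 : H ≤ M ⊓ I := le_inf hHM hH.1.le
  rcases hH.2 _ h1 inf_le_right with h | h
  · exact h.symm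
  · exact absurd (h ▸ inf_le_left : I ≤ M) hne

theorem sympT_mem_I (S : IsSpGroup hf I) (v : ι → F) (a : F) : sympT hf v a ∈ I :=
  (S.mem_iff _).2 (sympT_preserves hf v a)

/-- Transitivity on non-zero vectors. -/
theorem exists_trans [Finite F] (S : IsSpGroup hf I) {v w : ι → F} (hv : v ≠ 0) (hw : w ≠ 0) :
    ∃ g ∈ I, (g : Matrix ι ι F) *ᵥ v = w := by
  obtain ⟨g, hg, hgv⟩ := Cfsg.Agent.Lib.Geo.SpFrames.exists_isometry_family hf (κ := Unit) (fun _ => v) (fun _ => w)
    (linearIndependent_unique_iff.2 hv) (linearIndependent_unique_iff.2 hw)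
    (fun _ _ => by rw [hf.alternating, hf.alternating])
  exact ⟨g, (S.mem_iff g).2 hg, hgv ()⟩

/-- A group transitive on non-zero vectors fixes no proper non-zero subspace. -/
theorem not_le_subspace {I : Subgroup (GL ι F)}
    (htr : ∀ v w : ι → F, v ≠ 0 → w ≠ 0 → ∃ g ∈ I, (g : Matrix ι ι F) *ᵥ v = w)
    {W : Submodule F (ι → F)} (h0 : W ≠ ⊥) (h1 : W ≠ ⊤) : ¬ I ≤ subspaceStabilizer W := by
  intro hle
  obtain ⟨w, hw, hw0⟩ := Submodule.exists_mem_ne_zero_of_ne_bot h0
  obtain ⟨v, hv⟩ : ∃ v, v ∉ W := by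
    by_contra hcon
    push Not at hcon
    exact h1 (Submodule.eq_top_iff'.2 hcon)
  have hv0 : v ≠ 0 := by
    rintro rfl
    exact hv W.zero_mem
  obtain ⟨g, hg, hgw⟩ := htr w v hw0 hv0
  have := (mem_subspaceStabilizer_iff_forall_mem W g).1 (hle hg) w hw
  rw [hgw] at this
  exact hv this

/-- A group transitive on non-zero vectors permutes no decomposition. -/
theorem not_le_decomp {I : Subgroup (GL ι F)}
    (htr : ∀ v w : ι → F, v ≠ 0 → w ≠ 0 → ∃ g ∈ I, (g : Matrix ι ι F) *ᵥ v = w)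
    {t m : ℕ} {D : Fin t → Submodule F (ι → F)} (hD : IsMDecomposition m D) :
    ¬ I ≤ decompositionStabilizer D := by
  classical
  intro hle
  have ht := hD.two_le
  let i₀ : Fin t := ⟨0, by omega⟩
  let i₁ : Fin t := ⟨1, by omega⟩
  have h01 : i₀ ≠ i₁ := by simp [i₀, i₁, Fin.ext_iff]
  have hne : ∀ i, D i ≠ ⊥ := by
    intro i h
    have h1 := hD.finrank_eq i
    rw [h] at h1
    have := hD.pos
    simp at h1
    omega
  obtain ⟨v, hv, hv0⟩ := Submodule.exists_mem_ne_zero_of_ne_bot (hne i₀)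
  obtain ⟨w, hw, hw0⟩ := Submodule.exists_mem_ne_zero_of_ne_bot (hne i₁)
  have hin : ∀ {i j : Fin t}, i ≠ j → D j ≤ ⨆ k, ⨆ (_ : k ≠ i), D k := by
    intro i j hij
    exact le_iSup₂_of_le j hij.symm le_rfl
  have hdis : ∀ (i : Fin t) {a : ι → F}, a ∈ D i → a ∈ (⨆ k, ⨆ (_ : k ≠ i), D k : Submodule F (ι → F)) → a = 0 := by
    intro i a ha ha'
    have := (hD.indep i)
    exact (Submodule.disjoint_def.1 this) a ha ha'
  have hvw0 : v + w ≠ 0 := by
    intro h
    have h2 : v = -w := eq_neg_of_add_eq_zero_left h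
    have h3 : v ∈ D i₁ := by
      rw [h2]
      exact (D i₁).neg_mem hw
    exact hv0 (hdis i₀ hv (hin h01 h3))
  obtain ⟨g, hg, hgv⟩ := htr v (v + w) hv0 hvw0
  obtain ⟨σ, hσ⟩ := hle hg
  have h1 : (g : Matrix ι ι F) *ᵥ v ∈ D (σ i₀) := by
    rw [← hσ i₀]
    exact ⟨v, hv, rfl⟩
  rw [hgv] at h1
  by_cases hj : σ i₀ = i₀
  · rw [hj] at h1
    have h2 : w ∈ D i₀ := by
      have := (D i₀).sub_mem h1 hv
      simpa using this
    exact hw0 (hdis i₁ hw (hin h01.symm h2))
  · have h2 : v ∈ (⨆ k, ⨆ (_ : k ≠ i₀), D k : Submodule F (ι → F)) := by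
      have h3 := hin (Ne.symm hj) h1
      have h4 := hin h01 hw
      have := Submodule.sub_mem _ h3 h4
      simpa using this
    exact hv0 (hdis i₀ hv h2)

/-- A vector orthogonal to two given functionals. -/
theorem exists_perp_pair (hf : IsSymplecticForm f) (hι : 3 ≤ Fintype.card ι) (v : ι → F) (k : Matrix ι ι F) :
    ∃ w : ι → F, w ≠ 0 ∧ f w v = 0 ∧ f (k *ᵥ w) v = 0 := by
  let φ : (ι → F) →ₗ[F] F :=
    { toFun := fun w => f w v
      map_add' := fun a b => hf.bilinear.add_left a b v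
      map_smul' := fun c a => hf.bilinear.smul_left c a v }
  let L : (ι → F) →ₗ[F] (Fin 2 → F) := LinearMap.pi ![φ, φ ∘ₗ Matrix.mulVecLin k]
  have hker : LinearMap.ker L ≠ ⊥ := by
    apply LinearMap.ker_ne_bot_of_finrank_lt
    simp only [Module.finrank_fintype_fun_eq_card, Fintype.card_fin]
    omega
  obtain ⟨w, hw, hw0⟩ := Submodule.exists_mem_ne_zero_of_ne_bot hker
  refine ⟨w, hw0, ?_, ?_⟩
  · have := congrFun (LinearMap.mem_ker.1 hw) 0
    simpa [L, φ] using this
  · have := congrFun (LinearMap.mem_ker.1 hw) 1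
    simpa [L, φ] using this

/-- A matrix for which every non-zero vector is an eigenvector is scalar. -/
theorem scalar_of_eig [Nonempty ι] {k : Matrix ι ι F} (h : ∀ v : ι → F, v ≠ 0 → ∃ c : F, k *ᵥ v = c • v) :
    ∃ a : F, k = a • 1 := by
  obtain ⟨a, ha⟩ := LinearMap.exists_eq_smul_id_of_forall_notLinearIndependent
    (f := Matrix.toLin' k) (fun v hLI => by
      have hv : v ≠ 0 := by
        rintro rfl
        have := LinearIndependent.pair_iff.1 hLI 1 0 (by simp)
        exact one_ne_zero this.1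
      obtain ⟨c, hc⟩ := h v hv
      have := LinearIndependent.pair_iff.1 hLI c (-1) (by
        simp only [Matrix.toLin'_apply, hc]
        simp)
      simp at this)
  refine ⟨a, ?_⟩
  have h1 := congrArg LinearMap.toMatrix' ha
  rw [LinearMap.toMatrix'_toLin'] at h1
  rw [h1, map_smul]
  congr 1
  exact LinearMap.toMatrix'_id

/-- A matrix commuting with all transvections is scalar. -/
theorem scalar_of_comm [Nonempty ι] (hf : IsSymplecticForm f) {k : Matrix ι ι F}
    (h : ∀ v : ι → F, ((sympT hf v 1 : GL ι F) : Matrix ι ι F) * k = k * ((sympT hf v 1 : GL ι F) : Matrix ι ι F)) :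
    ∃ a : F, k = a • 1 := by
  apply scalar_of_eig
  intro v hv
  obtain ⟨⟨x, hx⟩, -⟩ := hf.nondegenerate v hv
  refine ⟨f (k *ᵥ x) v / f x v, ?_⟩
  have h1 := congrArg (fun M => M *ᵥ x) (h v)
  simp only [← Matrix.mulVec_mulVec, sympT_mulVec, Matrix.mulVec_add, Matrix.mulVec_smul, one_smul] at h1
  have h2 : f x v • (k *ᵥ v) = f (k *ᵥ x) v • v := by
    have := add_left_cancel h1
    exact this.symm
  calc k *ᵥ v = (f x v)⁻¹ • (f x v • (k *ᵥ v)) := by
        rw [smul_smul, inv_mul_cancel₀ hx, one_smul]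
    _ = _ := by
        rw [h2, smul_smul]
        congr 1
        field_simp

/-- The symplectic group does not normalise a field. -/
theorem not_le_field (S : IsSpGroup hf I) {r : ℕ} (hr : 2 ≤ r) {K : Subalgebra F (Matrix ι ι F)}
    (hK : IsFieldSubalgebra r K) (hι : 3 ≤ Fintype.card ι) : ¬ I ≤ subalgebraNormalizer K := by
  classical
  intro hle
  haveI : Nonempty ι := by
    apply Fintype.card_pos_iff.1
    omega
  have hcomm : ∀ k ∈ K, ∀ v : ι → F,
      ((sympT hf v 1 : GL ι F) : Matrix ι ι F) * k = k * ((sympT hf v 1 : GL ι F) : Matrix ι ι F) := by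
    intro k hk v
    set t := sympT hf v 1 with ht
    have hm := hle (sympT_mem_I S v 1)
    have h1 : (t : Matrix ι ι F) * k * ((t⁻¹ : GL ι F) : Matrix ι ι F) ∈ K := (hm k).1 hk
    by_contra hne
    have hx0 : (t : Matrix ι ι F) * k * ((t⁻¹ : GL ι F) : Matrix ι ι F) - k ≠ 0 := by
      intro h0
      apply hne
      have h2 := sub_eq_zero.1 h0
      calc (t : Matrix ι ι F) * k = (t : Matrix ι ι F) * k * (((t⁻¹ : GL ι F) : Matrix ι ι F) * (t : Matrix ι ι F)) := by
            rw [← Units.val_mul, inv_mul_cancel, Units.val_one, mul_one]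
        _ = ((t : Matrix ι ι F) * k * ((t⁻¹ : GL ι F) : Matrix ι ι F)) * (t : Matrix ι ι F) := by
            simp only [mul_assoc]
        _ = k * (t : Matrix ι ι F) := by rw [h2]
    obtain ⟨y, hy, hxy⟩ := hK.inv _ (K.sub_mem h1 hk) hx0
    have hyx := hK.comm _ (K.sub_mem h1 hk) y hy
    rw [hxy] at hyx
    obtain ⟨w, hw0, hw1, hw2⟩ := exists_perp_pair hf hι v k
    have hfix : ∀ a : ι → F, f a v = 0 → (t : Matrix ι ι F) *ᵥ a = a := by
      intro a ha
      rw [ht, sympT_mulVec, ha, zero_smul, add_zero]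
    have hw3 : ((t⁻¹ : GL ι F) : Matrix ι ι F) *ᵥ w = w := by
      conv_lhs => rw [← hfix w hw1]
      exact inv_mulVec_mulVec t w
    have hxw : ((t : Matrix ι ι F) * k * ((t⁻¹ : GL ι F) : Matrix ι ι F) - k) *ᵥ w = 0 := by
      rw [Matrix.sub_mulVec, ← Matrix.mulVec_mulVec, hw3, ← Matrix.mulVec_mulVec, hfix _ hw2, sub_self]
    apply hw0
    have h5 : (y * ((t : Matrix ι ι F) * k * ((t⁻¹ : GL ι F) : Matrix ι ι F) - k)) *ᵥ w = w := by
      rw [← hyx, Matrix.one_mulVec]
    rw [← h5, ← Matrix.mulVec_mulVec, hxw, Matrix.mulVec_zero]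
  have hsc : ∀ k ∈ K, k ∈ (⊥ : Subalgebra F (Matrix ι ι F)) := by
    intro k hk
    obtain ⟨c, rfl⟩ := scalar_of_comm hf (hcomm k hk)
    rw [Algebra.mem_bot]
    exact ⟨c, by simp [Algebra.algebraMap_eq_smul_one]⟩
  have hbot : K = ⊥ := eq_bot_iff.2 hsc
  have h1 := hK.finrank_eq
  rw [hbot, Subalgebra.finrank_bot] at h1
  omega

/-- The symplectic group is not in a tensor product subgroup. -/
theorem not_le_tensor (S : IsSpGroup hf I) {n₁ n₂ : ℕ} (h1 : 2 ≤ n₁) (h2 : 2 ≤ n₂) (e : ι ≃ Fin n₁ × Fin n₂)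
    (P : GL ι F) : ¬ I ≤ tensorProductSubgroup n₁ n₂ e P := by
  classical
  intro hle
  haveI : Nonempty (Fin n₁) := ⟨⟨0, by omega⟩⟩
  haveI : Nonempty (Fin n₂) := ⟨⟨0, by omega⟩⟩
  haveI : Nonempty ι := ⟨e.symm (⟨0, by omega⟩, ⟨0, by omega⟩)⟩
  obtain ⟨i⟩ := ‹Nonempty ι›
  have hv0 : (Pi.single i 1 : ι → F) ≠ 0 := by
    intro h
    have := congrFun h i
    simp at this
  set v : ι → F := Pi.single i 1 with hv
  obtain ⟨a, b, hab⟩ := mem_tensor e P (hle (sympT_mem_I S v 1))
  -- the linear functional on tensors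
  have hT : ∀ x y, TT e P ((a : Matrix _ _ F) *ᵥ x) ((b : Matrix _ _ F) *ᵥ y) =
      TT e P x y + f (TT e P x y) v • v := by
    intro x y
    rw [← hab, sympT_mulVec, one_smul]
  have hfL : ∀ (x : Fin n₁ → F) (y y' : Fin n₂ → F), f (TT e P x (y + y')) v = f (TT e P x y) v + f (TT e P x y') v := by
    intro x y y'
    rw [TT_add_right, hf.bilinear.add_left]
  have hfLs : ∀ (x : Fin n₁ → F) (c : F) (y : Fin n₂ → F), f (TT e P x (c • y)) v = c * f (TT e P x y) v := by
    intro x c y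
    rw [TT_smul_right, hf.bilinear.smul_left]
  have hfR : ∀ (y : Fin n₂ → F) (x x' : Fin n₁ → F), f (TT e P (x + x') y) v = f (TT e P x y) v + f (TT e P x' y) v := by
    intro y x x'
    rw [TT_add_left, hf.bilinear.add_left]
  have hfRs : ∀ (y : Fin n₂ → F) (c : F) (x : Fin n₁ → F), f (TT e P (c • x) y) v = c * f (TT e P x y) v := by
    intro y c x
    rw [TT_smul_left, hf.bilinear.smul_left]
  have ex2 : ∀ (κ : ℕ) (_ : 2 ≤ κ) (φ : (Fin κ → F) → F), (∀ y y', φ (y + y') = φ y + φ y') →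
      (∀ (c : F) y, φ (c • y) = c * φ y) → ∃ y, y ≠ 0 ∧ φ y = 0 := by
    intro κ hκ φ h3 h4
    let L : (Fin κ → F) →ₗ[F] F :=
      { toFun := φ
        map_add' := h3
        map_smul' := h4 }
    have hker : LinearMap.ker L ≠ ⊥ := by
      apply LinearMap.ker_ne_bot_of_finrank_lt
      simp only [Module.finrank_fintype_fun_eq_card, Fintype.card_fin, Module.finrank_self]
      omega
    obtain ⟨w, hw, hw0⟩ := Submodule.exists_mem_ne_zero_of_ne_bot hker
    exact ⟨w, hw0, hw⟩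
  obtain ⟨A, hA⟩ : ∃ A : F, (a : Matrix (Fin n₁) (Fin n₁) F) = A • 1 := by
    apply scalar_of_eig
    intro x hx
    obtain ⟨y, hy0, hy⟩ := ex2 n₂ h2 (fun y => f (TT e P x y) v) (hfL x) (fun c y => hfLs x c y)
    have h3 := hT x y
    rw [hy, zero_smul, add_zero] at h3
    obtain ⟨r, -, hr, -⟩ := TT_unique e P hx hy0 h3.symm
    exact ⟨r, hr⟩
  obtain ⟨B, hB⟩ : ∃ B : F, (b : Matrix (Fin n₂) (Fin n₂) F) = B • 1 := by
    apply scalar_of_eig
    intro y hy
    obtain ⟨x, hx0, hx⟩ := ex2 n₁ h1 (fun x => f (TT e P x y) v) (hfR y) (fun c x => hfRs y c x)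
    have h3 := hT x y
    rw [hx, zero_smul, add_zero] at h3
    obtain ⟨r, hr0, -, hr⟩ := TT_unique e P hx0 hy h3.symm
    refine ⟨r⁻¹, ?_⟩
    rw [hr, smul_smul, inv_mul_cancel₀ hr0, one_smul]
    rw [← hr]
  -- the transvection is scalar
  have hsc : ((sympT hf v 1 : GL ι F) : Matrix ι ι F) = (A * B) • (1 : Matrix ι ι F) := by
    apply ext_TT e P
    intro x y
    rw [hab, hA, hB, Matrix.smul_mulVec, Matrix.smul_mulVec, Matrix.one_mulVec, Matrix.one_mulVec,
      TT_smul_left, TT_smul_right, Matrix.smul_mulVec, Matrix.one_mulVec, smul_smul]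
  have hvv : ((sympT hf v 1 : GL ι F) : Matrix ι ι F) *ᵥ v = v := by
    rw [sympT_mulVec, hf.alternating, zero_smul, add_zero]
  have hAB : A * B = 1 := by
    rw [hsc, Matrix.smul_mulVec, Matrix.one_mulVec] at hvv
    have h3 : (A * B - 1) • v = 0 := by
      rw [sub_smul, hvv, one_smul, sub_self]
    rcases smul_eq_zero.1 h3 with h4 | h4
    · linear_combination h4
    · exact absurd h4 hv0
  obtain ⟨⟨x, hx⟩, -⟩ := hf.nondegenerate v hv0
  have h5 := sympT_mulVec hf v 1 x
  rw [hsc, hAB, one_smul, Matrix.one_mulVec, one_smul] at h5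
  have h6 : f x v • v = 0 := by
    have := congrArg (fun w => w - x) h5
    simpa using this.symm
  rcases smul_eq_zero.1 h6 with h7 | h7
  · exact hx h7
  · exact hv0 h7

/-- The symplectic group is not in a subfield subgroup. -/
theorem not_le_subfield (S : IsSpGroup hf I) {F₀ : Subfield F} (hF : F₀ ≠ ⊤) (hι : 2 ≤ Fintype.card ι) (P : GL ι F) :
    ¬ I ≤ subfieldSubgroup F₀ P := by
  classical
  intro hle
  obtain ⟨x, hx⟩ : ∃ x, x ∉ F₀ := by
    by_contra hcon
    push Not at hcon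
    exact hF (eq_top_iff.2 fun y _ => hcon y)
  haveI : Nonempty ι := by
    apply Fintype.card_pos_iff.1
    omega
  obtain ⟨i⟩ := ‹Nonempty ι›
  have hv0 : (Pi.single i 1 : ι → F) ≠ 0 := by
    intro h
    have := congrFun h i
    simp at this
  set v : ι → F := Pi.single i 1 with hv
  -- the nilpotent matrix
  set Pm : Matrix ι ι F := (P : Matrix ι ι F) with hPm
  set Pi' : Matrix ι ι F := ((P⁻¹ : GL ι F) : Matrix ι ι F) with hPi
  have hPP : Pi' * Pm = 1 := by
    rw [hPi, hPm, ← Units.val_mul, inv_mul_cancel, Units.val_one]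
  have hPP' : Pm * Pi' = 1 := by
    rw [hPi, hPm, ← Units.val_mul, mul_inv_cancel, Units.val_one]
  set N₁ : Matrix ι ι F := ((sympT hf v 1 : GL ι F) : Matrix ι ι F) - 1 with hN₁
  have hN₁v : ∀ y, N₁ *ᵥ y = f y v • v := by
    intro y
    rw [hN₁, Matrix.sub_mulVec, sympT_mulVec, Matrix.one_mulVec, one_smul, add_sub_cancel_left]
  have hcN : ∀ c : F, ((sympT hf v c : GL ι F) : Matrix ι ι F) = 1 + c • N₁ := by
    intro c
    apply Matrix.toLin'.injective
    apply LinearMap.ext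
    intro y
    simp only [Matrix.toLin'_apply]
    rw [sympT_mulVec, Matrix.add_mulVec, Matrix.one_mulVec, Matrix.smul_mulVec, hN₁v, smul_smul, smul_smul, mul_comm]
  set N : Matrix ι ι F := Pi' * N₁ * Pm with hN
  have hN₁N₁ : N₁ * N₁ = 0 := by
    apply Matrix.toLin'.injective
    apply LinearMap.ext
    intro y
    simp only [Matrix.toLin'_apply, map_zero, LinearMap.zero_apply, ← Matrix.mulVec_mulVec]
    rw [hN₁v y, Matrix.mulVec_smul, hN₁v v, hf.alternating]
    simp
  have hN₁0 : N₁ ≠ 0 := by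
    intro h
    obtain ⟨⟨y, hy⟩, -⟩ := hf.nondegenerate v hv0
    have h1 := hN₁v y
    rw [h, Matrix.zero_mulVec] at h1
    rcases smul_eq_zero.1 h1.symm with h2 | h2
    · exact hy h2
    · exact hv0 h2
  have hNN : N * N = 0 := by
    calc N * N = Pi' * N₁ * (Pm * Pi') * N₁ * Pm := by
          simp only [hN, mul_assoc]
      _ = Pi' * (N₁ * N₁) * Pm := by
          rw [hPP', mul_one]
          simp only [mul_assoc]
      _ = 0 := by rw [hN₁N₁]; simp
  have hN0 : N ≠ 0 := by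
    intro h
    apply hN₁0
    calc N₁ = Pm * (Pi' * N₁ * Pm) * Pi' := by
          simp only [← mul_assoc, hPP', one_mul]
          rw [mul_assoc, hPP', mul_one]
      _ = 0 := by rw [← hN, h]; simp
  -- an off-diagonal entry
  obtain ⟨a, b, hab, hNab⟩ : ∃ a b, a ≠ b ∧ N a b ≠ 0 := by
    by_contra hcon
    push Not at hcon
    apply hN0
    have hdiag : N = Matrix.diagonal (fun i => N i i) := by
      ext a b
      by_cases h : a = b
      · subst h
        simp
      · rw [hcon a b h]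
        simp [h]
    rw [hdiag] at hNN ⊢
    rw [Matrix.diagonal_mul_diagonal] at hNN
    ext a b
    by_cases h : a = b
    · subst h
      have h1 := congrFun (congrFun hNN a) a
      simp only [Matrix.diagonal_apply_eq, Matrix.zero_apply] at h1
      simpa using h1
    · simp [h]
  -- the membership of the values
  have hval : ∀ d : F, d ≠ 0 → d + N a a / N a b ∈ F₀ := by
    intro d hd
    set c : F := (d * N a b)⁻¹ with hc
    have hc0 : c ≠ 0 := inv_ne_zero (mul_ne_zero hd hNab)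
    obtain ⟨C, A, hA⟩ := (mem_subfieldSubgroup_iff F₀ P _).1 (hle (sympT_mem_I S v c))
    have hent : ∀ y z, (Pi' * (1 + c • N₁) * Pm) y z = ((A : Matrix ι ι F₀) y z : F) * (C : F) := by
      intro y z
      have h3 : ((P⁻¹ * sympT hf v c * P : GL ι F) : Matrix ι ι F) = _ := congrArg Units.val hA
      simp only [Units.val_mul] at h3
      rw [hcN c] at h3
      rw [hPi, hPm, h3]
      simp [Matrix.GeneralLinearGroup.scalar, Matrix.scalar_apply, Matrix.mul_diagonal]
    have hform : Pi' * (1 + c • N₁) * Pm = 1 + c • N := by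
      rw [mul_add, add_mul, mul_one, hPP, Matrix.mul_smul, Matrix.smul_mul]
    rw [hform] at hent
    have e1 := hent a a
    have e2 := hent a b
    simp only [Matrix.add_apply, Matrix.one_apply_eq, Matrix.smul_apply, smul_eq_mul, Matrix.one_apply_ne hab, zero_add] at e1 e2
    have hAab : ((A : Matrix ι ι F₀) a b : F) ≠ 0 := by
      intro h
      rw [h, zero_mul] at e2
      exact (mul_ne_zero hc0 hNab) e2
    have hC : (C : F) ≠ 0 := C.ne_zero
    have h5 : d + N a a / N a b = ((A : Matrix ι ι F₀) a a : F) / ((A : Matrix ι ι F₀) a b : F) := by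
      have h6 : ((A : Matrix ι ι F₀) a a : F) / ((A : Matrix ι ι F₀) a b : F) = (1 + c * N a a) / (c * N a b) := by
        rw [e1, e2]
        field_simp
      rw [h6, hc]
      field_simp
    rw [h5]
    exact F₀.div_mem ((A : Matrix ι ι F₀) a a).2 ((A : Matrix ι ι F₀) a b).2
  have hx1 : x + 1 ≠ 0 := by
    intro h
    apply hx
    have : x = -1 := by linear_combination h
    rw [this]
    exact F₀.neg_mem F₀.one_mem
  have h3 := F₀.sub_mem (hval (x + 1) hx1) (hval 1 one_ne_zero)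
  apply hx
  convert h3 using 1
  ring

/-- A group transitive on non-zero vectors is not in a tensor wreath subgroup. -/
theorem not_le_wreath [Finite F] {I : Subgroup (GL ι F)}
    (htr : ∀ v w : ι → F, v ≠ 0 → w ≠ 0 → ∃ g ∈ I, (g : Matrix ι ι F) *ᵥ v = w)
    {m t : ℕ} (hm : 2 ≤ m) (ht : 2 ≤ t) (e : ι ≃ (Fin t → Fin m)) (P : GL ι F) :
    ¬ I ≤ tensorWreathSubgroup m t e P := by
  classical
  intro hle
  let a₀ : Fin m := ⟨0, by omega⟩
  let a₁ : Fin m := ⟨1, by omega⟩
  have ha : a₀ ≠ a₁ := by simp [a₀, a₁, Fin.ext_iff]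
  let c₀ : Fin t := ⟨0, by omega⟩
  let c₁ : Fin t := ⟨1, by omega⟩
  have hcc : c₁ ≠ c₀ := by simp [c₀, c₁, Fin.ext_iff]
  let x₀ : Fin t → Fin m := fun _ => a₀
  let x₁ : Fin t → Fin m := fun _ => a₁
  have hx : x₀ ≠ x₁ := fun h => ha (congrFun h c₀)
  set Φ : ((Fin t → Fin m) → F) → (ι → F) := fun u => (P : Matrix ι ι F) *ᵥ (u ∘ e) with hΦ
  have hΦinj : ∀ u u', Φ u = Φ u' → u = u' := by
    intro u u' h
    have h1 := congrArg (fun w => ((P⁻¹ : GL ι F) : Matrix ι ι F) *ᵥ w) h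
    simp only [hΦ, inv_mulVec_mulVec] at h1
    exact e.surjective.injective_comp_right h1
  have hΦ0 : ∀ u, u ≠ 0 → Φ u ≠ 0 := by
    intro u hu h
    apply hu
    apply hΦinj
    rw [h]
    simp [hΦ]
  set v : (Fin t → Fin m) → F := Pi.single x₁ 1 with hv
  set v' : (Fin t → Fin m) → F := v + Pi.single x₀ 1 with hv'
  have hv0 : v ≠ 0 := by
    intro h
    have := congrFun h x₁
    simp [hv] at this
  have hv'0 : v' ≠ 0 := by
    intro h
    have := congrFun h x₁
    simp [hv', hv, hx.symm] at this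
  obtain ⟨g, hg, hgv⟩ := htr _ _ (hΦ0 v hv0) (hΦ0 v' hv'0)
  obtain ⟨g₀, hg₀, hgP⟩ := (Cfsg.Agent.Lib.Asch.Cl.mem_tensorWreathSubgroup_iff e P g).1 (hle hg)
  have hgΦ : ∀ u, (g : Matrix ι ι F) *ᵥ Φ u = Φ ((g₀ : Matrix _ _ F) *ᵥ u) := by
    intro u
    simp only [hΦ]
    rw [Matrix.mulVec_mulVec, hgP, ← Matrix.mulVec_mulVec]
    congr 1
    ext i
    simp [Matrix.mulVec, dotProduct, Matrix.submatrix_apply]
    exact Equiv.sum_comp e (fun j => (g₀ : Matrix _ _ F) (e i) j * u j)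
  rw [hgΦ] at hgv
  have hg1 : (g₀ : Matrix _ _ F) *ᵥ v = v' := hΦinj _ _ hgv
  have hvD : Cfsg.Agent.Lib.CmaxL.Proper2.Dec v := by
    refine ⟨fun _ a => if a = a₁ then 1 else 0, fun x => ?_⟩
    by_cases hxx : x = x₁
    · subst hxx
      simp [hv, x₁]
    · have : ∃ i, x i ≠ a₁ := by
        by_contra hcon
        push Not at hcon
        exact hxx (funext hcon)
      obtain ⟨i, hi⟩ := this
      rw [Finset.prod_eq_zero (Finset.mem_univ i) (by simp [hi])]
      simp [hv, hxx]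
  obtain ⟨us, hus⟩ := Cfsg.Agent.Lib.CmaxL.Proper2.dec_of_mem hg₀ v hvD
  rw [hg1] at hus
  have hgv' : ∀ x, v' x = (if x = x₁ then 1 else 0) + (if x = x₀ then 1 else 0) := by
    intro x
    simp [hv', hv, Pi.single_apply]
  have hu0 : ∀ i, us i a₀ ≠ 0 := by
    intro i h
    have h1 := hus x₀
    rw [hgv', Finset.prod_eq_zero (Finset.mem_univ i) h, if_neg hx, if_pos rfl] at h1
    simp at h1
  have hu1 : ∀ i, us i a₁ ≠ 0 := by
    intro i h
    have h1 := hus x₁
    rw [hgv', Finset.prod_eq_zero (Finset.mem_univ i) h, if_pos rfl, if_neg hx.symm] at h1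
    simp at h1
  let y : Fin t → Fin m := Function.update x₀ c₀ a₁
  have hy1 : y ≠ x₁ := by
    intro h
    have := congrFun h c₁
    simp only [y, Function.update_of_ne hcc, x₀, x₁] at this
    exact ha this
  have hy0 : y ≠ x₀ := by
    intro h
    have := congrFun h c₀
    simp only [y, Function.update_self, x₀] at this
    exact ha this.symm
  have h1 := hus y
  rw [hgv', if_neg hy1, if_neg hy0, add_zero] at h1
  have h2 : ∏ i, us i (y i) ≠ 0 := by
    apply Finset.prod_ne_zero_iff.2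
    intro i _
    by_cases hic : i = c₀
    · subst hic
      simpa [y] using hu1 _
    · simpa [y, Function.update_of_ne hic, x₀] using hu0 i
  exact h2 h1.symm

end Cfsg.Agent.Lib.CmaxS.Proper
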