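/-
The symplectic group as a subgroup of `GL`: perfect, and its normal subgroups.
-/
import Cfsg.Agent.Lib.Classical.SympSimple
import Cfsg.Agent.Lib.Geo.Basic

set_option autoImplicit false
set_option linter.style.haveILetI false

namespace Cfsg.Agent.Lib.CmaxS.Simple

open Matrix Module Cfsg Cfsg.Geo
open Cfsg.Agent.Lib.Classical.SympForm Cfsg.Agent.Lib.Classical.SympSimple Cfsg.Agent.Lib.Classical.Alt
open scoped MatrixGroups

universe u

variable {m : ℕ} {F : Type u} [Field F]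

/-- The two models of the symplectic group. -/
noncomputable def eSp : spGL m F ≃* Matrix.symplecticGroup (Fin m) F :=
  (spGLEquiv (m := m) (F := F)).trans spEquiv.symm

theorem eSp_mulVec (g : spGL m F) (x : Fin m ⊕ Fin m → F) :
    (eSp g).1 *ᵥ x = (((g : GL (Fin m ⊕ Fin m) F)) : Matrix (Fin m ⊕ Fin m) (Fin m ⊕ Fin m) F) *ᵥ x := by
  simp only [eSp, MulEquiv.trans_apply]
  rw [spEquiv_symm_mulVec]
  rfl

theorem perfect [Finite F] (h : 3 ≤ m ∨ (m = 2 ∧ 3 ≤ Nat.card F) ∨ 4 ≤ Nat.card F) :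
    ⁅spGL m F, spGL m F⁆ = spGL m F := by
  have h1 : commutator (spGL m F) = ⊤ :=
    commutator_eq_top_of_mulEquiv eSp (commutator_symplecticGroup h)
  have h2 := congrArg (fun K => K.map (spGL m F).subtype) h1
  simp only [commutator_def, Subgroup.map_commutator] at h2
  have h3 : (⊤ : Subgroup (spGL m F)).map (spGL m F).subtype = spGL m F := by
    rw [← MonoidHom.range_eq_map, Subgroup.range_subtype]
  rwa [h3] at h2

theorem scalars_of_center (hm : 1 ≤ m) (g : spGL m F) (h : eSp g ∈ Subgroup.center (Matrix.symplecticGroup (Fin m) F)) :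
    (g : GL _ F) ∈ scalars (Fin m ⊕ Fin m) F := by
  rcases (mem_center_symplecticGroup_iff hm _).1 h with h1 | h1
  · have : g = 1 := by
      apply eSp.injective
      rw [h1, map_one]
    rw [this]
    exact Subgroup.one_mem _
  · refine (mem_scalars_iff _).2 ⟨-1, ?_⟩
    apply Matrix.toLin'.injective
    apply LinearMap.ext
    intro x
    simp only [Matrix.toLin'_apply]
    rw [← eSp_mulVec, h1]
    simp [negOne, Matrix.neg_mulVec]

/-- The normal subgroups of the symplectic group. -/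
theorem normal [Finite F] (hm : 2 ≤ m) (hq : m = 2 → 3 ≤ Nat.card F) (N : Subgroup (GL (Fin m ⊕ Fin m) F))
    (hNI : N ≤ spGL m F) (hN : ∀ g ∈ spGL m F, ∀ x ∈ N, g * x * g⁻¹ ∈ N) :
    N ≤ scalars (Fin m ⊕ Fin m) F ∨ spGL m F ≤ N ⊔ scalars (Fin m ⊕ Fin m) F := by
  classical
  haveI hs : IsSimpleGroup (Cfsg.PSp m F) := isSimpleGroup_PSp hm hq
  let G₀ := Matrix.symplecticGroup (Fin m) F
  let N₀ : Subgroup G₀ := (N.subgroupOf (spGL m F)).map eSp.toMonoidHom
  have hN₀ : N₀.Normal := by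
    refine ⟨?_⟩
    rintro _ ⟨⟨n, hn⟩, hn', rfl⟩ g
    obtain ⟨g', rfl⟩ := eSp.surjective g
    refine ⟨g' * ⟨n, hn⟩ * g'⁻¹, ?_, by simp⟩
    exact hN g'.1 g'.2 n hn'
  let π := QuotientGroup.mk' (Subgroup.center G₀)
  haveI hK : (N₀.map π).Normal := hN₀.map π (QuotientGroup.mk'_surjective _)
  rcases IsSimpleGroup.eq_bot_or_eq_top_of_normal (N₀.map π) hK with h | h
  · left
    intro x hx
    have hxI := hNI hx
    have h1 : π (eSp ⟨x, hxI⟩) = 1 := by
      have h2 : π (eSp ⟨x, hxI⟩) ∈ N₀.map π := ⟨_, ⟨⟨x, hxI⟩, hx, rfl⟩, rfl⟩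
      rw [h] at h2
      exact h2
    have h2 : eSp ⟨x, hxI⟩ ∈ Subgroup.center G₀ := (QuotientGroup.eq_one_iff _).1 h1
    exact scalars_of_center (by omega) ⟨x, hxI⟩ h2
  · right
    intro g hg
    have h1 : π (eSp ⟨g, hg⟩) ∈ N₀.map π := by
      rw [h]
      trivial
    obtain ⟨_, ⟨n, hn, rfl⟩, hπ⟩ := h1
    have h2 : (eSp n)⁻¹ * eSp ⟨g, hg⟩ ∈ Subgroup.center G₀ := QuotientGroup.eq.1 hπ
    have h3 : eSp (n⁻¹ * ⟨g, hg⟩) ∈ Subgroup.center G₀ := by
      rwa [map_mul, map_inv]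
    have h4 := scalars_of_center (by omega) _ h3
    have h5 : g = (n : GL _ F) * (((n⁻¹ * ⟨g, hg⟩ : spGL m F)) : GL _ F) := by
      simp
    rw [h5]
    exact Subgroup.mul_mem _ (Subgroup.mem_sup_left hn) (Subgroup.mem_sup_right h4)

end Cfsg.Agent.Lib.CmaxS.Simple
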