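/-
The geometric classes of the symplectic groups, continued: normalisers of `r`-groups, quadratic forms; the degree of a
self-adjoint field; the order of a class 6 group.
-/
import Cfsg.Agent.Lib.CmaxS.Proper
import Cfsg.Agent.Lib.CmaxS.Gen
import Cfsg.Agent.Lib.CmaxS.Simple
import Cfsg.Agent.Lib.NotMax.TensorFrame
import Cfsg.Agent.Lib.TI.SympExp4

set_option autoImplicit false
set_option linter.unusedSectionVars false
set_option linter.style.haveILetI false

namespace Cfsg.Agent.Lib.CmaxS.Proper2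

open Matrix Module Cfsg Cfsg.Geo Cfsg.Agent.Lib.Geo.Basic Cfsg.Agent.Lib.Geo.SympInSL Cfsg.Agent.Lib.Geo.SpBase
open Cfsg.Agent.Lib.Geo.SpSubspace Cfsg.Agent.Lib.CmaxS.Proper
open scoped MatrixGroups

universe u

variable {ι : Type} [Fintype ι] [DecidableEq ι] {F : Type u} [Field F]
variable {f : (ι → F) → (ι → F) → F} {hf : IsSymplecticForm f} {I : Subgroup (GL ι F)}

/-- A transvection is not a scalar. -/
theorem sympT_not_scalar (hf : IsSymplecticForm f) {v : ι → F} (hv : v ≠ 0) : sympT hf v 1 ∉ scalars ι F := by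
  intro h
  obtain ⟨c, hc⟩ := (mem_scalars_iff _).1 h
  have hvv : ((sympT hf v 1 : GL ι F) : Matrix ι ι F) *ᵥ v = v := by
    rw [sympT_mulVec, hf.alternating, zero_smul, add_zero]
  rw [hc, Matrix.smul_mulVec, Matrix.one_mulVec] at hvv
  have hc1 : (c : F) = 1 := by
    have h3 : ((c : F) - 1) • v = 0 := by
      rw [sub_smul, hvv, one_smul, sub_self]
    rcases smul_eq_zero.1 h3 with h4 | h4
    · linear_combination h4
    · exact absurd h4 hv
  obtain ⟨⟨x, hx⟩, -⟩ := hf.nondegenerate v hv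
  have h5 := sympT_mulVec hf v 1 x
  rw [hc, hc1, one_smul, Matrix.one_mulVec, one_smul] at h5
  have h6 : f x v • v = 0 := by
    have := congrArg (fun w => w - x) h5
    simpa using this.symm
  rcases smul_eq_zero.1 h6 with h7 | h7
  · exact hx h7
  · exact hv h7

/-- Powers of a transvection. -/
theorem sympT_pow_ne (hf : IsSymplecticForm f) {v : ι → F} (hv : v ≠ 0) {n : ℕ} (hn : (n : F) ≠ 0) :
    sympT hf v 1 ^ n ≠ 1 := by
  intro h
  obtain ⟨⟨x, hx⟩, -⟩ := hf.nondegenerate v hv
  have hvv : ((sympT hf v 1 : GL ι F) : Matrix ι ι F) *ᵥ v = v := by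
    rw [sympT_mulVec, hf.alternating, zero_smul, add_zero]
  have hxx : ((sympT hf v 1 : GL ι F) : Matrix ι ι F) *ᵥ x = x + f x v • v := by
    rw [sympT_mulVec, one_smul]
  have h1 := Cfsg.Agent.Lib.CmaxL.Proper2.pow_aux (sympT hf v 1) hvv hxx n
  rw [h, Units.val_one, Matrix.one_mulVec] at h1
  have h2 : ((n : F) * f x v) • v = 0 := by
    have := congrArg (fun w => w - x) h1
    simpa using this.symm
  rcases smul_eq_zero.1 h2 with h3 | h3
  · exact (mul_ne_zero hn hx) h3
  · exact hv h3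

/-- The conjugate of a transvection by a similarity is an isometry. -/
theorem conj_mem (S : IsSpGroup hf I) {x : GL ι F} (hx : x ∈ similarityGroup f) (v : ι → F) :
    x * sympT hf v 1 * x⁻¹ ∈ I := by
  rw [S.mem_iff]
  intro a b
  obtain ⟨c, hc⟩ := hx
  simp only [Units.val_mul, ← Matrix.mulVec_mulVec]
  rw [hc, sympT_preserves hf v 1, ← hc, mulVec_inv_mulVec, mulVec_inv_mulVec]

theorem I_mul_mem (S : IsSpGroup hf I) {x : GL ι F} (hx : x ∈ similarityGroup f) {v : ι → F} :
    x * sympT hf v 1 * x⁻¹ * (sympT hf v 1)⁻¹ ∈ I :=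
  I.mul_mem (conj_mem S hx v) (I.inv_mem (sympT_mem_I S v 1))

/-- The symplectic group does not normalise an absolutely irreducible `r`-group of similarities. -/
theorem not_le_normalizer [Fintype F] {m : ℕ} (hm : 2 ≤ m) (hq : m = 2 → 3 ≤ Fintype.card F) {r : ℕ}
    {R : Subgroup (GL (Fin m ⊕ Fin m) F)} (hA : ActsAbsolutelyIrreducibly (matrixSet R)) (hr : (r : F) ≠ 0)
    (hP : IsPGroup r R) (hsim : R ≤ similarityGroup (sympForm m F)) :
    ¬ spGL m F ≤ subgroupNormalizer R := by
  classical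
  have hcard : Nat.card F = Fintype.card F := Nat.card_eq_fintype_card
  have hf := isSymplecticForm_sympForm (F := F) m
  have S := isSpGroup_spGL (F := F) m
  haveI : Nonempty (Fin m ⊕ Fin m) := ⟨Sum.inl ⟨0, by omega⟩⟩
  obtain ⟨i⟩ := ‹Nonempty (Fin m ⊕ Fin m)›
  have hv0 : (Pi.single i 1 : Fin m ⊕ Fin m → F) ≠ 0 := by
    intro h
    have := congrFun h i
    simp at this
  set v : Fin m ⊕ Fin m → F := Pi.single i 1 with hv
  have hι : 3 ≤ Fintype.card (Fin m ⊕ Fin m) := by simp; omega
  refine Cfsg.Agent.Lib.CmaxS.Gen.not_le_normalizer_gen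
    (Cfsg.Agent.Lib.CmaxS.Simple.normal hm (fun h => by rw [hcard]; exact hq h))
    (Cfsg.Agent.Lib.CmaxS.Simple.perfect (by
      rcases Nat.lt_or_ge m 3 with h | h
      · right; left
        have h2 : m = 2 := by omega
        exact ⟨h2, by rw [hcard]; exact hq h2⟩
      · exact Or.inl h)) hA hP
    (t := sympT hf v 1) (sympT_mem_I S v 1) (sympT_not_scalar hf hv0)
    (fun k => sympT_pow_ne hf hv0 (by push_cast; exact pow_ne_zero _ hr))
    (fun x hx => I_mul_mem S (hsim hx)) ?_
  intro x hx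
  obtain ⟨w, hw0, hw1, hw2⟩ := exists_perp_pair hf hι v ((x⁻¹ : GL _ F) : Matrix _ _ F)
  refine ⟨w, hw0, ?_⟩
  set t := sympT hf v 1 with ht
  have hfix : ∀ a : Fin m ⊕ Fin m → F, sympForm m F a v = 0 → (t : Matrix _ _ F) *ᵥ a = a := by
    intro a ha
    rw [ht, sympT_mulVec, ha, zero_smul, add_zero]
  have hw3 : ((t⁻¹ : GL _ F) : Matrix _ _ F) *ᵥ w = w := by
    conv_lhs => rw [← hfix w hw1]
    exact inv_mulVec_mulVec t w
  simp only [Units.val_mul, ← Matrix.mulVec_mulVec]
  rw [hw3, hfix _ hw2, mulVec_inv_mulVec]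

/-- The symplectic group is not in the similarity group of a quadratic form polarising to the form. -/
theorem not_le_quad [Finite F] (S : IsSpGroup hf I) {Q : (ι → F) → F} (hQ : IsNondegenerateQuadraticForm Q)
    (hpol : ∀ u v, QuadraticMap.polar Q u v = f u v) (hι : 3 ≤ Fintype.card ι) :
    ¬ I ≤ quadSimilarityGroup Q := by
  classical
  intro hle
  haveI : Nonempty ι := by
    apply Fintype.card_pos_iff.1
    omega
  obtain ⟨i⟩ := ‹Nonempty ι›
  have hv0 : (Pi.single i 1 : ι → F) ≠ 0 := by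
    intro h
    have := congrFun h i
    simp at this
  set v : ι → F := Pi.single i 1 with hv
  have hQne : ∀ u : ι → F, u ≠ 0 → Q u ≠ 0 := by
    intro u hu h0
    -- all non-zero vectors are singular
    have hall : ∀ w : ι → F, w ≠ 0 → Q w = 0 := by
      intro w hw
      obtain ⟨g, hg, hgu⟩ := exists_trans S hu hw
      obtain ⟨c, hc⟩ := hle hg
      rw [← hgu, hc, h0, mul_zero]
    have h00 : Q 0 = 0 := by
      have := hQ.smul 0 v
      simpa using this
    have hall' : ∀ w : ι → F, Q w = 0 := by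
      intro w
      by_cases hw : w = 0
      · rw [hw, h00]
      · exact hall w hw
    obtain ⟨⟨x, hx⟩, -⟩ := hQ.nondegenerate v hv0
    apply hx
    simp only [QuadraticMap.polar, hall']
    simp
  have hval : ∀ u : ι → F, u ≠ 0 → Q u = -1 := by
    intro u hu
    obtain ⟨c, hc⟩ := hle (sympT_mem_I S u 1)
    have h1 := hc u
    rw [sympT_mulVec, hf.alternating, zero_smul, add_zero] at h1
    have hc1 : (c : F) = 1 := by
      have h3 : ((c : F) - 1) * Q u = 0 := by linear_combination -h1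
      rcases mul_eq_zero.1 h3 with h4 | h4
      · linear_combination h4
      · exact absurd h4 (hQne u hu)
    obtain ⟨⟨x, hx⟩, -⟩ := hf.nondegenerate u hu
    have h2 := hc x
    rw [hc1, one_mul, sympT_mulVec, one_smul] at h2
    have h3 : QuadraticMap.polar Q x (f x u • u) = Q (x + f x u • u) - Q x - Q (f x u • u) := rfl
    have h4 : QuadraticMap.polar Q x (f x u • u) = f x u * f x u := by
      rw [hpol, hf.bilinear.smul_right]
    rw [hQ.smul, h2] at h3
    rw [h4] at h3
    have h5 : f x u ^ 2 * (1 + Q u) = 0 := by linear_combination h3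
    rcases mul_eq_zero.1 h5 with h6 | h6
    · exact absurd (pow_eq_zero_iff (by norm_num) |>.1 h6) hx
    · linear_combination h6
  -- two orthogonal independent vectors
  obtain ⟨⟨x, hx⟩, -⟩ := hf.nondegenerate v hv0
  obtain ⟨w, hw0, hwv, hwx⟩ := Cfsg.Agent.Lib.NotMax.Tensor.exists_perp_two hf.bilinear.add_left hf.bilinear.smul_left
    (by omega) v x
  have hvw : v + w ≠ 0 := by
    intro h
    have h2 : w = -v := eq_neg_of_add_eq_zero_right h
    rw [h2] at hwx
    have h3 : f (-v) x = - f v x := by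
      have := hf.bilinear.smul_left (-1) v x
      simpa using this
    rw [h3] at hwx
    exact (form_comm_ne hf hx) (by simpa using hwx)
  have h1 : QuadraticMap.polar Q v w = Q (v + w) - Q v - Q w := rfl
  rw [hpol, hval _ hvw, hval _ hv0, hval _ hw0] at h1
  have h2 : f v w = 0 := form_comm_eq hf hwv
  rw [h2] at h1
  exact one_ne_zero (α := F) (by linear_combination -h1)

/-! ### The degree of a self-adjoint field -/

section Field

variable {K : Subalgebra F (Matrix ι ι F)}

/-- The `K`-line through a vector. -/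
def KL (K : Subalgebra F (Matrix ι ι F)) (v : ι → F) : Submodule F (ι → F) where
  carrier := {a | ∃ k ∈ K, k *ᵥ v = a}
  add_mem' := by
    rintro _ _ ⟨k, hk, rfl⟩ ⟨l, hl, rfl⟩
    exact ⟨k + l, K.add_mem hk hl, Matrix.add_mulVec _ _ _⟩
  zero_mem' := ⟨0, K.zero_mem, Matrix.zero_mulVec _⟩
  smul_mem' := by
    rintro c _ ⟨k, hk, rfl⟩
    exact ⟨c • k, K.smul_mem hk c, Matrix.smul_mulVec _ _ _⟩

theorem mem_KL {v a : ι → F} : a ∈ KL K v ↔ ∃ k ∈ K, k *ᵥ v = a := Iff.rfl

theorem exists_inv {r : ℕ} (hK : IsFieldSubalgebra r K) {k : Matrix ι ι F} (hk : k ∈ K) (h0 : k ≠ 0) :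
    ∃ y ∈ K, y * k = 1 ∧ k * y = 1 := by
  obtain ⟨y, hy, hxy⟩ := hK.inv k hk h0
  refine ⟨y, hy, ?_, hxy⟩
  rw [hK.comm y hy k hk, hxy]

theorem finrank_KL {r : ℕ} (hK : IsFieldSubalgebra r K) {v : ι → F} (hv : v ≠ 0) :
    Module.finrank F (KL K v) = r := by
  classical
  let L : K →ₗ[F] (ι → F) :=
    { toFun := fun k => (k : Matrix ι ι F) *ᵥ v
      map_add' := fun a b => Matrix.add_mulVec _ _ _
      map_smul' := fun c a => Matrix.smul_mulVec _ _ _ }
  have hinj : Function.Injective L := by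
    intro a b hab
    have h1 : ((a : Matrix ι ι F) - (b : Matrix ι ι F)) *ᵥ v = 0 := by
      rw [Matrix.sub_mulVec]
      exact sub_eq_zero.2 hab
    by_contra hne
    have h2 : (a : Matrix ι ι F) - (b : Matrix ι ι F) ≠ 0 := fun h => hne (Subtype.ext (sub_eq_zero.1 h))
    obtain ⟨y, -, hy, -⟩ := exists_inv hK (K.sub_mem a.2 b.2) h2
    apply hv
    have h3 := congrArg (fun w => y *ᵥ w) h1
    simpa [Matrix.mulVec_mulVec, hy] using h3
  have hr : LinearMap.range L = KL K v := by
    ext a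
    constructor
    · rintro ⟨k, rfl⟩
      exact ⟨k, k.2, rfl⟩
    · rintro ⟨k, hk, rfl⟩
      exact ⟨⟨k, hk⟩, rfl⟩
  rw [← hr, LinearMap.finrank_range_of_inj hinj]
  exact hK.finrank_eq

variable [Finite F] {r : ℕ}

theorem growth (hf : IsSymplecticForm f) (hK : IsFieldSubalgebra r K)
    (hadj : IsSelfAdjointFor f K) (halt : ∀ k ∈ K, ∀ v : ι → F, f (k *ᵥ v) v = 0) {W : Submodule F (ι → F)}
    (hW : IsNondegenerateOn f W) (hWK : ∀ k ∈ K, ∀ x ∈ W, k *ᵥ x ∈ W) (hne : W ≠ ⊤) :
    ∃ W' : Submodule F (ι → F), IsNondegenerateOn f W' ∧ (∀ k ∈ K, ∀ x ∈ W', k *ᵥ x ∈ W') ∧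
      Module.finrank F W' = Module.finrank F W + 2 * r := by
  classical
  have hO : orth hf W ≠ ⊥ := by
    intro h
    have h1 := finrank_add_orth hf hW
    rw [h, finrank_bot, add_zero] at h1
    apply hne
    apply Submodule.eq_top_of_finrank_eq
    rw [h1, Module.finrank_fintype_fun_eq_card]
  obtain ⟨v, hv, hv0⟩ := Submodule.exists_mem_ne_zero_of_ne_bot hO
  obtain ⟨-, ⟨w, hw, hvw⟩⟩ := isNondegenerateOn_orth hf hW v hv hv0
  have hw0 : w ≠ 0 := by
    rintro rfl
    apply hvw
    have := hf.bilinear.smul_right 0 v 0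
    simpa using this
  have hwv : f w v ≠ 0 := form_comm_ne hf hvw
  have hOK : ∀ k ∈ K, ∀ x ∈ orth hf W, k *ᵥ x ∈ orth hf W := by
    intro k hk x hx y hy
    rw [← hadj k hk y x]
    exact hx _ (hWK k hk y hy)
  have hvL : KL K v ≤ orth hf W := by
    rintro _ ⟨k, hk, rfl⟩
    exact hOK k hk v hv
  have hwL : KL K w ≤ orth hf W := by
    rintro _ ⟨k, hk, rfl⟩
    exact hOK k hk w hw
  set A := KL K v ⊔ KL K w with hA
  have hAO : A ≤ orth hf W := sup_le hvL hwL
  -- the sum of the lines is direct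
  have hdisj : KL K v ⊓ KL K w = ⊥ := by
    rw [eq_bot_iff]
    rintro a ⟨⟨k, hk, rfl⟩, ⟨l, hl, hlw⟩⟩
    by_cases hl0 : l = 0
    · rw [hl0, Matrix.zero_mulVec] at hlw
      exact hlw.symm
    · exfalso
      obtain ⟨y, hy, hy1, -⟩ := exists_inv hK hl hl0
      have h1 : w = (y * k) *ᵥ v := by
        have := congrArg (fun u => y *ᵥ u) hlw
        simpa [Matrix.mulVec_mulVec, hy1] using this
      apply hwv
      rw [h1]
      exact halt _ (K.mul_mem hy hk) v
  have hfA : Module.finrank F A = 2 * r := by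
    have h1 := Submodule.finrank_sup_add_finrank_inf_eq (KL K v) (KL K w)
    rw [hdisj, finrank_bot, add_zero, finrank_KL hK hv0, finrank_KL hK hw0] at h1
    rw [hA, h1]
    ring
  have hWA : W ⊓ A = ⊥ := by
    rw [eq_bot_iff]
    rintro a ⟨h1, h2⟩
    exact eq_zero_of_mem_of_mem_orth hf hW h1 (hAO h2)
  refine ⟨W ⊔ A, ?_, ?_, ?_⟩
  · intro x hx hx0
    obtain ⟨y, hy, a, ha, rfl⟩ := Submodule.mem_sup.1 hx
    have hfa : ∀ z ∈ W, f z a = 0 := fun z hz => hAO ha z hz
    by_cases hy0 : y = 0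
    · subst hy0
      rw [zero_add] at hx0 ⊢
      obtain ⟨b, hb, c, hc, rfl⟩ := Submodule.mem_sup.1 ha
      obtain ⟨k, hk, rfl⟩ := hb
      obtain ⟨l, hl, rfl⟩ := hc
      have key : ∃ z ∈ W ⊔ A, f z (k *ᵥ v + l *ᵥ w) ≠ 0 := by
        by_cases hl0 : l = 0
        · have hk0 : k ≠ 0 := by
            rintro rfl
            apply hx0
            simp [hl0]
          obtain ⟨y, hy, hy1, hy2⟩ := exists_inv hK hk hk0
          refine ⟨y *ᵥ w, Submodule.mem_sup_right (Submodule.mem_sup_right ⟨y, hy, rfl⟩), ?_⟩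
          rw [hl0, Matrix.zero_mulVec, add_zero, ← hadj k hk, Matrix.mulVec_mulVec, hy2, Matrix.one_mulVec]
          exact hwv
        · obtain ⟨y, hy, hy1, hy2⟩ := exists_inv hK hl hl0
          refine ⟨y *ᵥ v, Submodule.mem_sup_right (Submodule.mem_sup_left ⟨y, hy, rfl⟩), ?_⟩
          rw [hf.bilinear.add_right, ← hadj k hk, ← hadj l hl, Matrix.mulVec_mulVec, Matrix.mulVec_mulVec, hy2,
            Matrix.one_mulVec, halt _ (K.mul_mem hk hy), zero_add]
          exact hvw
      obtain ⟨z, hz, hzf⟩ := key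
      exact ⟨⟨z, hz, hzf⟩, ⟨z, hz, form_comm_ne hf hzf⟩⟩
    · obtain ⟨⟨z, hz, hzy⟩, -⟩ := hW y hy hy0
      have h1 : f z (y + a) ≠ 0 := by
        rw [hf.bilinear.add_right, hfa z hz, add_zero]
        exact hzy
      exact ⟨⟨z, Submodule.mem_sup_left hz, h1⟩, ⟨z, Submodule.mem_sup_left hz, form_comm_ne hf h1⟩⟩
  · intro k hk x hx
    obtain ⟨y, hy, a, ha, rfl⟩ := Submodule.mem_sup.1 hx
    rw [Matrix.mulVec_add]
    refine Submodule.add_mem _ (Submodule.mem_sup_left (hWK k hk y hy)) (Submodule.mem_sup_right ?_)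
    obtain ⟨b, hb, c, hc, rfl⟩ := Submodule.mem_sup.1 ha
    rw [Matrix.mulVec_add]
    obtain ⟨l, hl, rfl⟩ := hb
    obtain ⟨l', hl', rfl⟩ := hc
    refine Submodule.add_mem _ (Submodule.mem_sup_left ⟨k * l, K.mul_mem hk hl, ?_⟩)
      (Submodule.mem_sup_right ⟨k * l', K.mul_mem hk hl', ?_⟩)
    · rw [Matrix.mulVec_mulVec]
    · rw [Matrix.mulVec_mulVec]
  · have h1 := Submodule.finrank_sup_add_finrank_inf_eq W A
    rw [hWA, finrank_bot, add_zero, hfA] at h1
    exact h1

/-- The degree of a self-adjoint alternating field. -/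
theorem two_mul_dvd (hf : IsSymplecticForm f) (hK : IsFieldSubalgebra r K)
    (hadj : IsSelfAdjointFor f K) (halt : ∀ k ∈ K, ∀ v : ι → F, f (k *ᵥ v) v = 0) :
    2 * r ∣ Fintype.card ι := by
  classical
  have key : ∀ d : ℕ, ∀ W : Submodule F (ι → F), Fintype.card ι - Module.finrank F W = d →
      IsNondegenerateOn f W → (∀ k ∈ K, ∀ x ∈ W, k *ᵥ x ∈ W) → 2 * r ∣ Module.finrank F W →
      2 * r ∣ Fintype.card ι := by
    intro d
    induction d using Nat.strong_induction_on with
    | _ d ih =>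
      intro W hd hW hWK hdvd
      by_cases hne : W = ⊤
      · rw [hne, finrank_top, Module.finrank_fintype_fun_eq_card] at hdvd
        exact hdvd
      · obtain ⟨W', h1, h2, h3⟩ := growth hf hK hadj halt hW hWK hne
        have hr0 : 0 < r := by
          haveI hnι : Nonempty ι := by
            by_contra hc
            rw [not_nonempty_iff] at hc
            exact hne (Submodule.eq_top_iff'.2 (fun x => by rw [Subsingleton.elim x 0]; exact W.zero_mem))
          haveI : Nontrivial K := ⟨⟨0, 1, fun h => zero_ne_one (α := Matrix ι ι F) (congrArg Subtype.val h)⟩⟩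
          rw [← hK.finrank_eq]
          exact Module.finrank_pos
        have hle1 : Module.finrank F W' ≤ Fintype.card ι := by
          have := Submodule.finrank_le W'
          rwa [Module.finrank_fintype_fun_eq_card] at this
        refine ih (Fintype.card ι - Module.finrank F W') (by omega) W' rfl h1 h2 ?_
        rw [h3]
        exact Dvd.dvd.add hdvd (dvd_refl _)
  refine key _ ⊥ rfl ?_ ?_ ?_
  · intro w hw hw0
    exact absurd hw hw0
  · intro k _ x hx
    rw [(Submodule.mem_bot F).1 hx, Matrix.mulVec_zero]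
    exact Submodule.zero_mem _
  · simp

end Field

/-! ### Even dimensions -/

theorem even_finrank_of_nondeg [Finite F] (hf : IsSymplecticForm f) {W : Submodule F (ι → F)} (hW : IsNondegenerateOn f W) :
    Even (Module.finrank F W) := by
  obtain ⟨n, -, -, h, -⟩ := Cfsg.Agent.Lib.Geo.SpFrames.exists_frame hf W hW
  exact ⟨n, by omega⟩

theorem even_card_of_symp [Finite F] (hf : IsSymplecticForm f) : Even (Fintype.card ι) := by
  have h := even_finrank_of_nondeg hf (W := ⊤) (fun w _ hw => by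
    obtain ⟨⟨x, hx⟩, ⟨y, hy⟩⟩ := hf.nondegenerate w hw
    exact ⟨⟨x, Submodule.mem_top, hx⟩, ⟨y, Submodule.mem_top, hy⟩⟩)
  rwa [finrank_top, Module.finrank_fintype_fun_eq_card] at h

/-! ### The order of a class 6 group -/

/-- The order of an absolutely irreducible symplectic-type `2`-group with centre of order two. -/
theorem card_of_two [Finite F] [Nonempty ι] {R : Subgroup (GL ι F)} (hR : IsSymplecticTypeGroup 2 R)
    (hA : ActsAbsolutelyIrreducibly (matrixSet R)) (hc : Nat.card (Subgroup.center R) = 2) :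
    Nat.card R = 2 * (Fintype.card ι) ^ 2 := by
  classical
  haveI : Finite R := inferInstance
  obtain ⟨z, hz1⟩ : ∃ z : Subgroup.center R, z ≠ 1 := by
    haveI : Finite (Subgroup.center R) := inferInstance
    haveI : Nontrivial (Subgroup.center R) := by
      apply Finite.one_lt_card_iff_nontrivial.1
      omega
    exact exists_ne 1
  have hz2 : z * z = 1 := by
    have h1 : orderOf z ∣ 2 := by
      rw [← hc]
      exact orderOf_dvd_natCard z
    have h2 := orderOf_dvd_iff_pow_eq_one.1 h1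
    rwa [pow_two] at h2
  have h4 : ∀ x : R, x ^ 4 = 1 := by
    intro x
    have h1 := Monoid.exponent_dvd_of_forall_pow_eq_one (G := R) (n := Monoid.exponent R) (fun g => Monoid.pow_exponent_eq_one g)
    have h2 : Monoid.exponent R = 4 := by
      rw [hR.exponent_eq]
      norm_num
    rw [← h2]
    exact Monoid.pow_exponent_eq_one x
  have hs := Cfsg.Agent.Lib.TI.SympExp4.structure_thm hR.pGroup hR.cyclic_of_characteristic h4 (z := z.1) z.2
    (congrArg Subtype.val hz2) (fun h => hz1 (Subtype.ext h))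
  have hzZ : ((z.1 : R) : GL ι F) ∈ scalars ι F := by
    have h1 : z.1 ∈ (scalars ι F).subgroupOf R := by
      rw [← Cfsg.Agent.Lib.Asch.SC.center_eq hA]
      exact z.2
    exact Subgroup.mem_subgroupOf.1 h1
  obtain ⟨c, hc'⟩ := (mem_scalars_iff _).1 hzZ
  have hSC : Cfsg.Agent.Lib.Asch.SC.ScC R := by
    intro x hx y hy
    rcases hs.2.1 ⟨x, hx⟩ ⟨y, hy⟩ with h | h
    · refine ⟨1, ?_⟩
      have h1 : x * y * x⁻¹ * y⁻¹ = 1 := by
        have := congrArg Subtype.val h
        simpa [commutatorElement_def] using this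
      have h2 : x * y = y * x := by
        calc x * y = (x * y * x⁻¹ * y⁻¹) * (y * x) := by group
          _ = y * x := by rw [h1, one_mul]
      rw [one_smul, ← Units.val_mul, h2, Units.val_mul]
    · refine ⟨c, ?_⟩
      have h1 : x * y * x⁻¹ * y⁻¹ = (z.1 : GL ι F) := by
        have := congrArg Subtype.val h
        simpa [commutatorElement_def] using this
      have h2 : x * y = (z.1 : GL ι F) * (y * x) := by
        rw [← h1]
        group
      have h3 := congrArg Units.val h2
      rw [Units.val_mul, Units.val_mul, Units.val_mul, hc', Matrix.smul_mul, one_mul] at h3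
      exact h3
  rw [Cfsg.Agent.Lib.Asch.SC.card_eq hA hSC, hc]

end Cfsg.Agent.Lib.CmaxS.Proper2
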