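/-
Small arithmetic for the lists of maximal subgroups of symplectic groups.
-/
import Cfsg.Agent.Lib.CmaxS.Proper2

set_option autoImplicit false
set_option linter.unusedVariables false
set_option linter.unusedTactic false
set_option linter.unreachableTactic false

namespace Cfsg.Agent.Lib.CmaxS.Arith

open Cfsg Cfsg.Geo

variable {t k n₁ n₂ r : ℕ}

private theorem le_half {a : ℕ} (h : t * k = a) (ht : 2 ≤ t) : 2 * k ≤ a := by
  subst h
  exact Nat.mul_le_mul_right k ht

theorem tk_2 (h : t * k = 4) (he : Even k) (ht : 2 ≤ t) : t = 2 ∧ k = 2 := by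
  have := le_half h ht
  have h1 : k ≤ 2 := by omega
  interval_cases k <;> first | omega | (exact absurd he (by decide))

theorem tk_3 (h : t * k = 6) (he : Even k) (ht : 2 ≤ t) : t = 3 ∧ k = 2 := by
  have := le_half h ht
  have h1 : k ≤ 3 := by omega
  interval_cases k <;> first | omega | (exact absurd he (by decide))

theorem tk_4 (h : t * k = 8) (he : Even k) (ht : 2 ≤ t) : (t = 4 ∧ k = 2) ∨ (t = 2 ∧ k = 4) := by
  have := le_half h ht
  have h1 : k ≤ 4 := by omega
  interval_cases k <;> first | omega | (exact absurd he (by decide))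

theorem tk_5 (h : t * k = 10) (he : Even k) (ht : 2 ≤ t) : t = 5 ∧ k = 2 := by
  have := le_half h ht
  have h1 : k ≤ 5 := by omega
  interval_cases k <;> first | omega | (exact absurd he (by decide))

theorem tk_6 (h : t * k = 12) (he : Even k) (ht : 2 ≤ t) : (t = 6 ∧ k = 2) ∨ (t = 3 ∧ k = 4) ∨ (t = 2 ∧ k = 6) := by
  have := le_half h ht
  have h1 : k ≤ 6 := by omega
  interval_cases k <;> first | omega | (exact absurd he (by decide))

private theorem n1_le {a : ℕ} (h : n₁ * n₂ = a) (hn₂ : 3 ≤ n₂) : 3 * n₁ ≤ a := by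
  subst h
  rw [mul_comm n₁ n₂]
  exact Nat.mul_le_mul_right n₁ hn₂

theorem tens_2 (h : n₁ * n₂ = 4) (he : Even n₁) (h1 : 2 ≤ n₁) (hn₂ : 3 ≤ n₂) : False := by
  have := n1_le h hn₂
  have h2 : n₁ ≤ 1 := by omega
  omega

theorem tens_3 (h : n₁ * n₂ = 6) (he : Even n₁) (h1 : 2 ≤ n₁) (hn₂ : 3 ≤ n₂) : n₁ = 2 ∧ n₂ = 3 := by
  have := n1_le h hn₂
  have h2 : n₁ ≤ 2 := by omega
  interval_cases n₁ <;> first | omega | (exact absurd he (by decide))

theorem tens_4 (h : n₁ * n₂ = 8) (he : Even n₁) (h1 : 2 ≤ n₁) (hn₂ : 3 ≤ n₂) : n₁ = 2 ∧ n₂ = 4 := by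
  have := n1_le h hn₂
  have h2 : n₁ ≤ 2 := by omega
  interval_cases n₁ <;> first | omega | (exact absurd he (by decide))

theorem tens_5 (h : n₁ * n₂ = 10) (he : Even n₁) (h1 : 2 ≤ n₁) (hn₂ : 3 ≤ n₂) : n₁ = 2 ∧ n₂ = 5 := by
  have := n1_le h hn₂
  have h2 : n₁ ≤ 3 := by omega
  interval_cases n₁ <;> first | omega | (exact absurd he (by decide))

theorem tens_6 (h : n₁ * n₂ = 12) (he : Even n₁) (h1 : 2 ≤ n₁) (hn₂ : 3 ≤ n₂) : (n₁ = 2 ∧ n₂ = 6) ∨ (n₁ = 4 ∧ n₂ = 3) := by
  have := n1_le h hn₂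
  have h2 : n₁ ≤ 4 := by omega
  interval_cases n₁ <;> first | omega | (exact absurd he (by decide))

private theorem wr_aux {a : ℕ} (ha : a < 27) (h : k ^ t = a) (he : Even k) (ht : 3 ≤ t) (h0 : a ≠ 0) : k = 2 := by
  have hk0 : k ≠ 0 := by
    rintro rfl
    rw [zero_pow (by omega)] at h
    exact h0 h.symm
  have h1 : k ^ 3 ≤ k ^ t := Nat.pow_le_pow_right (by omega) ht
  have h2 : k < 3 := by
    by_contra hcon
    have h3 : 3 ^ 3 ≤ k ^ 3 := Nat.pow_le_pow_left (by omega) 3
    omega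
  interval_cases k
  · exact absurd rfl hk0
  · exact absurd he (by decide)
  · rfl

private theorem t_lt {a : ℕ} (ha : a < 32) (h : 2 ^ t = a) : t < 5 := by
  by_contra hcon
  have h1 : 2 ^ 5 ≤ 2 ^ t := Nat.pow_le_pow_right (by norm_num) (by omega)
  omega

theorem wr_4 (h : k ^ t = 4) (he : Even k) (ht : 3 ≤ t) : False := by
  obtain rfl := wr_aux (by norm_num) h he ht (by norm_num)
  have := t_lt (by norm_num) h
  interval_cases t <;> omega

theorem wr_6 (h : k ^ t = 6) (he : Even k) (ht : 3 ≤ t) : False := by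
  obtain rfl := wr_aux (by norm_num) h he ht (by norm_num)
  have := t_lt (by norm_num) h
  interval_cases t <;> omega

theorem wr_8 (h : k ^ t = 8) (he : Even k) (ht : 3 ≤ t) : k = 2 ∧ t = 3 := by
  obtain rfl := wr_aux (by norm_num) h he ht (by norm_num)
  have := t_lt (by norm_num) h
  interval_cases t <;> omega

theorem wr_10 (h : k ^ t = 10) (he : Even k) (ht : 3 ≤ t) : False := by
  obtain rfl := wr_aux (by norm_num) h he ht (by norm_num)
  have := t_lt (by norm_num) h
  interval_cases t <;> omega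

theorem wr_12 (h : k ^ t = 12) (he : Even k) (ht : 3 ≤ t) : False := by
  obtain rfl := wr_aux (by norm_num) h he ht (by norm_num)
  have := t_lt (by norm_num) h
  interval_cases t <;> omega

theorem pw_4 (h : 2 ^ k = 4) : k = 2 := by
  have := t_lt (by norm_num) h
  interval_cases k <;> omega

theorem pw_6 (h : 2 ^ k = 6) : False := by
  have := t_lt (by norm_num) h
  interval_cases k <;> omega

theorem pw_8 (h : 2 ^ k = 8) : k = 3 := by
  have := t_lt (by norm_num) h
  interval_cases k <;> omega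

theorem pw_10 (h : 2 ^ k = 10) : False := by
  have := t_lt (by norm_num) h
  interval_cases k <;> omega

theorem pw_12 (h : 2 ^ k = 12) : False := by
  have := t_lt (by norm_num) h
  interval_cases k <;> omega

theorem prime_dvd_six (hr : r.Prime) (h : r ∣ 6) : r = 2 ∨ r = 3 := by
  have h6 : (6 : ℕ) = 2 * 3 := by norm_num
  rw [h6] at h
  rcases (Nat.Prime.dvd_mul hr).1 h with h1 | h1
  · exact Or.inl ((Nat.prime_dvd_prime_iff_eq hr Nat.prime_two).1 h1)
  · exact Or.inr ((Nat.prime_dvd_prime_iff_eq hr Nat.prime_three).1 h1)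

/-- A non-zero non-degenerate subspace of an alternating space has dimension at least two. -/
theorem nondeg_small {ι : Type} [Fintype ι] [DecidableEq ι] {F : Type*} [Field F] [Finite F]
    {f : (ι → F) → (ι → F) → F} (hf : IsSymplecticForm f) {W : Submodule F (ι → F)} (h0 : W ≠ ⊥)
    (hW : IsNondegenerateOn f W) (hlt : Module.finrank F W < 2) : False := by
  have h1 := Cfsg.Agent.Lib.CmaxS.Proper2.even_finrank_of_nondeg hf hW
  have h2 : Module.finrank F W = 0 := by
    obtain ⟨a, ha⟩ := h1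
    omega
  exact h0 (Submodule.finrank_eq_zero.1 h2)

end Cfsg.Agent.Lib.CmaxS.Arith
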