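/-
Maximal subgroups of the symplectic groups: the class list as a list of intersections with `Sp`.
-/
import Cfsg.Agent.Lib.CmaxS.Proper2
import Cfsg.Agent.Lib.CmaxL.Master
import Cfsg.Agent.Lib.NotMax.Sp2

set_option autoImplicit false
set_option linter.unusedSectionVars false
set_option linter.style.haveILetI false

namespace Cfsg.Agent.Lib.CmaxS.Master

open Matrix Module Cfsg Cfsg.Geo Cfsg.Agent.Lib.Geo.Basic Cfsg.Agent.Lib.Geo.SympInSL Cfsg.Agent.Lib.Geo.SpBase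
open Cfsg.Agent.Lib.Geo.SpSubspace Cfsg.Agent.Lib.Geo.SpDecomp Cfsg.Agent.Lib.CmaxS.Proper Cfsg.Agent.Lib.CmaxS.Proper2
open scoped MatrixGroups

universe u

variable {F : Type u} [Field F]

theorem not_le_of_inf_lt {ι : Type} [Fintype ι] [DecidableEq ι] {I X : Subgroup (GL ι F)} (h : X ⊓ I < I) : ¬ I ≤ X := by
  intro hle
  rw [inf_eq_right.2 hle] at h
  exact lt_irrefl _ h

/-- A maximal subgroup has no proper overgroup. -/
theorem no_between {ι : Type} [Fintype ι] [DecidableEq ι] {I H X : Subgroup (GL ι F)} (hH : IsMaximalIn I H) (hX : H = X)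
    (hK : ∃ K : Subgroup (GL ι F), X < K ∧ K < I) : False := by
  obtain ⟨K, h1, h2⟩ := hK
  subst hX
  rcases hH.2 K h1.le h2.le with h | h
  · exact absurd h.symm (ne_of_lt h1)
  · exact absurd h (ne_of_lt h2)

variable [Fintype F]

/-- The symplectic group is perfect under the conditions of the classification statement. -/
theorem perfect_sp {m : ℕ} (hm : 2 ≤ m) (hq : m = 2 → 3 ≤ Fintype.card F) : ⁅spGL m F, spGL m F⁆ = spGL m F := by
  have hcard : Nat.card F = Fintype.card F := Nat.card_eq_fintype_card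
  apply Cfsg.Agent.Lib.CmaxS.Simple.perfect
  rcases Nat.lt_or_ge m 3 with h | h
  · right; left
    have h2 : m = 2 := by omega
    exact ⟨h2, by rw [hcard]; exact hq h2⟩
  · exact Or.inl h

/-- The main list. -/
theorem master {m : ℕ} (hm : 2 ≤ m) (hq : m = 2 → 3 ≤ Fintype.card F) (H : Subgroup (GL (Fin m ⊕ Fin m) F))
    (hH : IsMaximalIn (spGL m F) H)
    (hA : (∃ M, InSymplecticClass m F M ∧ H ≤ M) ∨ InSymplecticResidualClass H) :
    (∃ W : Submodule F (Fin m ⊕ Fin m → F), W ≠ ⊥ ∧ IsTotallySingularFor (sympForm m F) W ∧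
      H = subspaceStabilizer W ⊓ spGL m F) ∨
    (∃ W : Submodule F (Fin m ⊕ Fin m → F), W ≠ ⊥ ∧ IsNondegenerateOn (sympForm m F) W ∧ Module.finrank F W < m ∧
      H = subspaceStabilizer W ⊓ spGL m F) ∨
    (∃ (t k : ℕ) (D : Fin t → Submodule F (Fin m ⊕ Fin m → F)), IsNondegenerateMDecomposition (sympForm m F) k D ∧
      t * k = 2 * m ∧ Even k ∧ (k = 2 → 3 ≤ Fintype.card F) ∧ H = decompositionStabilizer D ⊓ spGL m F) ∨
    (∃ D : Fin 2 → Submodule F (Fin m ⊕ Fin m → F), Odd (Fintype.card F) ∧ IsMDecomposition m D ∧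
      (∀ i, IsTotallySingularFor (sympForm m F) (D i)) ∧ H = decompositionStabilizer D ⊓ spGL m F) ∨
    (∃ (r : ℕ) (K : Subalgebra F (Matrix (Fin m ⊕ Fin m) (Fin m ⊕ Fin m) F)), r.Prime ∧ r ∣ m ∧ IsFieldSubalgebra r K ∧
      IsSelfAdjointFor (sympForm m F) K ∧ (∀ k ∈ K, ∀ v, sympForm m F (k *ᵥ v) v = 0) ∧
      H = subalgebraNormalizer K ⊓ spGL m F) ∨
    (∃ K : Subalgebra F (Matrix (Fin m ⊕ Fin m) (Fin m ⊕ Fin m) F), Odd (Fintype.card F) ∧ IsFieldSubalgebra 2 K ∧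
      IsAdjointClosedFor (sympForm m F) K ∧ ¬ IsSelfAdjointFor (sympForm m F) K ∧
      H = subalgebraNormalizer K ⊓ spGL m F) ∨
    (∃ (n₁ n₂ : ℕ) (e : (Fin m ⊕ Fin m) ≃ Fin n₁ × Fin n₂) (P : GL (Fin m ⊕ Fin m) F)
      (f₁ : (Fin n₁ → F) → (Fin n₁ → F) → F) (f₂ : (Fin n₂ → F) → (Fin n₂ → F) → F),
      Odd (Fintype.card F) ∧ 3 ≤ n₂ ∧ n₁ * n₂ = 2 * m ∧ Even n₁ ∧ 2 ≤ n₁ ∧ (n₂ = 3 → 5 ≤ Fintype.card F) ∧
      IsSymplecticForm f₁ ∧ IsSymmetricForm f₂ ∧
      IsTensorFormStructure id (sympForm m F) f₁ f₂ e P ∧ H = tensorProductSubgroup n₁ n₂ e P ⊓ spGL m F) ∨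
    (∃ (k t : ℕ) (e : (Fin m ⊕ Fin m) ≃ (Fin t → Fin k)) (P : GL (Fin m ⊕ Fin m) F) (f₁ : (Fin k → F) → (Fin k → F) → F),
      Odd (Fintype.card F) ∧ Odd t ∧ 3 ≤ t ∧ k ^ t = 2 * m ∧ Even k ∧ ¬ (Fintype.card F = 3 ∧ k = 2) ∧ IsSymplecticForm f₁ ∧
      IsTensorPowerFormStructure id (sympForm m F) f₁ e P ∧ H = tensorWreathSubgroup k t e P ⊓ spGL m F) ∨
    (∃ (F₀ : Subfield F) (r : ℕ) (P : GL (Fin m ⊕ Fin m) F) (ζ : F), r.Prime ∧ Fintype.card F = Nat.card F₀ ^ r ∧ ζ ≠ 0 ∧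
      IsFormRationalStructure (sympForm m F) F₀ ζ P ∧ H = subfieldSubgroup F₀ P ⊓ spGL m F) ∨
    (∃ (R : Subgroup (GL (Fin m ⊕ Fin m) F)) (p k : ℕ), IsSymplecticTypeGroup 2 R ∧
      ActsAbsolutelyIrreducibly (matrixSet R) ∧ R ≤ similarityGroup (sympForm m F) ∧ p.Prime ∧ Odd p ∧ Fintype.card F = p ∧
      Nat.card R = 2 ^ (1 + 2 * k) ∧ Nat.card (Subgroup.center R) = 2 ∧ IsOfMinusType k R ∧ 2 ^ k = 2 * m ∧
      H = subgroupNormalizer R ⊓ spGL m F) ∨
    (∃ Q : (Fin m ⊕ Fin m → F) → F, ¬ Odd (Fintype.card F) ∧ IsNondegenerateQuadraticForm Q ∧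
      (∀ u v, QuadraticMap.polar Q u v = sympForm m F u v) ∧ H = quadSimilarityGroup Q ⊓ spGL m F) ∨
    InSymplecticResidualClass H := by
  classical
  have hf := isSymplecticForm_sympForm (F := F) m
  have S := isSpGroup_spGL (F := F) m
  have hcard : Fintype.card (Fin m ⊕ Fin m) = 2 * m := by simp; omega
  have hι : 3 ≤ Fintype.card (Fin m ⊕ Fin m) := by omega
  have htr : ∀ v w : Fin m ⊕ Fin m → F, v ≠ 0 → w ≠ 0 → ∃ g ∈ spGL m F, (g : Matrix _ _ F) *ᵥ v = w :=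
    fun v w hv hw => exists_trans S hv hw
  have hinf : ∀ {X : Subgroup (GL (Fin m ⊕ Fin m) F)}, H ≤ X → ¬ spGL m F ≤ X → H = X ⊓ spGL m F :=
    fun h1 h2 => eq_inf_of_le hH h1 h2
  rcases hA with ⟨M, hM, hHM⟩ | hres
  swap
  · exact Or.inr <| Or.inr <| Or.inr <| Or.inr <| Or.inr <| Or.inr <| Or.inr <| Or.inr <| Or.inr <| Or.inr <| Or.inr hres
  rcases hM with (⟨W, h0, hW, rfl⟩ | ⟨W, h0, hW, hlt, rfl⟩ | ⟨t, k, D, hD, rfl⟩ | ⟨D, hodd, hD, hDs, rfl⟩ |
      ⟨F₀, r, P, ζ, hr, hc, hζ, hrat, rfl⟩ | ⟨R, p, k, hR, hRA, hRs, hp, hpo, hpc, hRc, hZc, hmin, rfl⟩ |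
      ⟨Q, heven, hQ, hpol, rfl⟩) |
      ⟨r, K, hr, hK, hsa, halt, rfl⟩ | ⟨K, hodd, hK, hcl, hns, rfl⟩ |
      ⟨n₁, n₂, e, P, f₁, f₂, hodd, hn₂, hf₁, hf₂, hT, rfl⟩ | ⟨k, t, e, P, f₁, hodd, htodd, ht3, hne, hf₁, hT, rfl⟩
  · -- totally singular
    exact Or.inl ⟨W, h0, hW, hinf (hHM.trans inf_le_left) (not_le_of_inf_lt (singular_inf_lt S W h0 hW))⟩
  · -- non-degenerate
    exact Or.inr <| Or.inl ⟨W, h0, hW, hlt, hinf (hHM.trans inf_le_left)
      (not_le_of_inf_lt (nondeg_inf_lt S W h0 hW (by omega)))⟩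
  · -- decomposition into non-degenerate subspaces
    have hE : H = decompositionStabilizer D ⊓ spGL m F :=
      hinf (hHM.trans inf_le_left) (not_le_of_inf_lt (decomp_inf_lt S hD))
    have hcd : t * k = 2 * m := by
      rw [← hcard]
      exact Cfsg.Agent.Lib.CmaxL.Master.decomp_card hD.decomp
    have ht2 := hD.decomp.two_le
    have hk : Even k := by
      have h1 := even_finrank_of_nondeg hf (hD.nondegenerate ⟨0, by omega⟩)
      rwa [hD.decomp.finrank_eq] at h1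
    refine Or.inr <| Or.inr <| Or.inl ⟨t, k, D, hD, hcd, hk, ?_, hE⟩
    intro hk2
    subst hk2
    by_contra hq2
    have hq2' : Fintype.card F = 2 := by
      have : 2 ≤ Fintype.card F := Fintype.one_lt_card
      omega
    have hm3 : 3 ≤ m := by
      rcases Nat.lt_or_ge m 3 with h | h
      · have := hq (by omega)
        omega
      · exact h
    have ht3 : 3 ≤ t := by omega
    exact no_between hH hE (Cfsg.Agent.Lib.NotMax.Sp2.decomp_not_maximal hq2' S hD ht3)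
  · -- a pair of totally singular subspaces
    exact Or.inr <| Or.inr <| Or.inr <| Or.inl ⟨D, hodd, hD, hDs,
      hinf (hHM.trans inf_le_left) (not_le_decomp htr hD)⟩
  · -- subfields
    have hF₀ := Cfsg.Agent.Lib.CmaxL.Master.subfield_ne_top hr hc
    exact Or.inr <| Or.inr <| Or.inr <| Or.inr <| Or.inr <| Or.inr <| Or.inr <| Or.inr <| Or.inl
      ⟨F₀, r, P, ζ, hr, hc, hζ, hrat, hinf (hHM.trans inf_le_left) (not_le_subfield S hF₀ (by omega) P)⟩
  · -- class 6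
    have hr2 : ((2 : ℕ) : F) ≠ 0 := by
      have : (2 : F) ≠ 0 := by
        intro h
        have h1 : Even (Fintype.card F) := Cfsg.Agent.Lib.Classical.SympSimple.two_eq_zero_iff_even_card.1 h
        rw [hpc] at h1
        exact (Nat.not_even_iff_odd.2 hpo) h1
      exact_mod_cast this
    have hE : H = subgroupNormalizer R ⊓ spGL m F :=
      hinf (hHM.trans inf_le_left) (not_le_normalizer hm hq hRA hr2 hR.pGroup hRs)
    haveI : Nonempty (Fin m ⊕ Fin m) := ⟨Sum.inl ⟨0, by omega⟩⟩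
    have h1 := card_of_two hR hRA hZc
    rw [hRc, hcard] at h1
    have h2 : (2 ^ k) ^ 2 = (2 * m) ^ 2 := by
      have h3 : 2 ^ (1 + 2 * k) = 2 * (2 ^ k) ^ 2 := by ring
      rw [h3] at h1
      omega
    have h3 : 2 ^ k = 2 * m := by
      exact (Nat.pow_left_injective (n := 2) (by norm_num)) h2
    exact Or.inr <| Or.inr <| Or.inr <| Or.inr <| Or.inr <| Or.inr <| Or.inr <| Or.inr <| Or.inr <| Or.inl
      ⟨R, p, k, hR, hRA, hRs, hp, hpo, hpc, hRc, hZc, hmin, h3, hE⟩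
  · -- quadratic forms
    exact Or.inr <| Or.inr <| Or.inr <| Or.inr <| Or.inr <| Or.inr <| Or.inr <| Or.inr <| Or.inr <| Or.inr <| Or.inl
      ⟨Q, heven, hQ, hpol, hinf (hHM.trans inf_le_left) (not_le_quad S hQ hpol hι)⟩
  · -- self-adjoint fields
    have h1 := two_mul_dvd hf hK hsa halt
    rw [hcard] at h1
    have h2 : r ∣ m := Nat.dvd_of_mul_dvd_mul_left (by norm_num) h1
    exact Or.inr <| Or.inr <| Or.inr <| Or.inr <| Or.inl ⟨r, K, hr, h2, hK, hsa, halt,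
      hinf (hHM.trans inf_le_left) (not_le_field S hr.two_le hK hι)⟩
  · -- unitary fields
    exact Or.inr <| Or.inr <| Or.inr <| Or.inr <| Or.inr <| Or.inl ⟨K, hodd, hK, hcl, hns,
      hinf (hHM.trans inf_le_left) (not_le_field S le_rfl hK hι)⟩
  · -- tensor products
    have hcn : n₁ * n₂ = 2 * m := by
      rw [← hcard, Fintype.card_congr e]
      simp
    have hev : Even n₁ := by
      have := even_card_of_symp hf₁
      simpa using this
    have hn₁ : 2 ≤ n₁ := by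
      obtain ⟨a, ha⟩ := hev
      rcases Nat.lt_or_ge a 1 with h | h
      · have : a = 0 := by omega
        subst this
        have : n₁ = 0 := by omega
        subst this
        omega
      · omega
    have hE : H = tensorProductSubgroup n₁ n₂ e P ⊓ spGL m F :=
      hinf (hHM.trans inf_le_left) (not_le_tensor S hn₁ (by omega) e P)
    refine Or.inr <| Or.inr <| Or.inr <| Or.inr <| Or.inr <| Or.inr <| Or.inl
      ⟨n₁, n₂, e, P, f₁, f₂, hodd, hn₂, hcn, hev, hn₁, ?_, hf₁, hf₂, hT, hE⟩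
    intro h3
    subst h3
    by_contra hq5
    have hq3 : Fintype.card F = 3 := by
      obtain ⟨a, ha⟩ := hodd
      have : 2 ≤ Fintype.card F := Fintype.one_lt_card
      omega
    exact no_between hH hE (Cfsg.Agent.Lib.NotMax.Tensor.q3_tensor_sp hq3 (by omega) e P hf₁ hf₂ hT)
  · -- tensor powers
    have hcn : k ^ t = 2 * m := by
      rw [← hcard, Fintype.card_congr e]
      simp
    have hev : Even k := by
      have := even_card_of_symp hf₁
      simpa using this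
    have hk : 2 ≤ k := by
      obtain ⟨a, ha⟩ := hev
      rcases Nat.lt_or_ge a 1 with h | h
      · have : a = 0 := by omega
        subst this
        have : k = 0 := by omega
        subst this
        rw [zero_pow (by omega)] at hcn
        omega
      · omega
    exact Or.inr <| Or.inr <| Or.inr <| Or.inr <| Or.inr <| Or.inr <| Or.inr <| Or.inl
      ⟨k, t, e, P, f₁, hodd, htodd, ht3, hcn, hev, hne, hf₁, hT,
        hinf (hHM.trans inf_le_left) (not_le_wreath htr hk (by omega) e P)⟩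

end Cfsg.Agent.Lib.CmaxS.Master
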