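/-
The list of maximal subgroups of `Sp_2m(q)`, small `m`, given Aschbacher's theorem for the symplectic groups.
-/
import Cfsg.Agent.Lib.CmaxS.Master
import Cfsg.Agent.Lib.CmaxS.Arith

set_option autoImplicit false
set_option linter.unusedVariables false
set_option maxHeartbeats 1000000

namespace Cfsg.Agent.Lib.CmaxS.Rows

universe u_1

theorem s5790  {F : Type*} [Field F] [Fintype F] (heven : ¬ Odd (Fintype.card F)) (h4 : 4 ≤ Fintype.card F) (H : Subgroup (Matrix.GeneralLinearGroup (Fin 2 ⊕ Fin 2) F)) (hH : Cfsg.Geo.IsMaximalIn (Cfsg.spGL 2 F) H)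
    (hA : (∃ M, Cfsg.Geo.InSymplecticClass 2 F M ∧ H ≤ M) ∨ Cfsg.Geo.InSymplecticResidualClass H) :
    (∃ W : Submodule F (Fin 2 ⊕ Fin 2 → F), W ≠ ⊥ ∧ Cfsg.Geo.IsTotallySingularFor (Cfsg.sympForm 2 F) W ∧ H = Cfsg.Geo.subspaceStabilizer W ⊓ Cfsg.spGL 2 F) ∨
    (∃ D : Fin 2 → Submodule F (Fin 2 ⊕ Fin 2 → F), Cfsg.Geo.IsNondegenerateMDecomposition (Cfsg.sympForm 2 F) 2 D ∧ H = Cfsg.Geo.decompositionStabilizer D ⊓ Cfsg.spGL 2 F) ∨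
    (∃ K : Subalgebra F (Matrix (Fin 2 ⊕ Fin 2) (Fin 2 ⊕ Fin 2) F), Cfsg.Geo.IsFieldSubalgebra 2 K ∧ Cfsg.Geo.IsSelfAdjointFor (Cfsg.sympForm 2 F) K ∧ (∀ k ∈ K, ∀ v : (Fin 2 ⊕ Fin 2 → F), (Cfsg.sympForm 2 F) (Matrix.mulVec k v) v = 0) ∧ H = Cfsg.Geo.subalgebraNormalizer K ⊓ Cfsg.spGL 2 F) ∨
    (∃ (F₀ : Subfield F) (r : ℕ) (P : Matrix.GeneralLinearGroup (Fin 2 ⊕ Fin 2) F) (ζ : F), r.Prime ∧ Fintype.card F = Nat.card F₀ ^ r ∧ ζ ≠ 0 ∧ Cfsg.Geo.IsFormRationalStructure (Cfsg.sympForm 2 F) F₀ ζ P ∧ H = Cfsg.Geo.subfieldSubgroup F₀ P ⊓ Cfsg.spGL 2 F) ∨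
    (∃ Q : (Fin 2 ⊕ Fin 2 → F) → F, Cfsg.Geo.IsNondegenerateQuadraticForm Q ∧ (∀ u v : (Fin 2 ⊕ Fin 2 → F), QuadraticMap.polar Q u v = (Cfsg.sympForm 2 F) u v) ∧ H = Cfsg.Geo.quadSimilarityGroup Q ⊓ Cfsg.spGL 2 F) ∨
    Cfsg.Geo.InSymplecticResidualClass H := by
  have hq : (2 : ℕ) = 2 → 3 ≤ Fintype.card F := fun _ => by omega
  rcases Cfsg.Agent.Lib.CmaxS.Master.master (by norm_num) hq H hH hA with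
    ⟨W, h0, hW, hE⟩ | ⟨W, h0, hW, hlt, hE⟩ | ⟨t, k, D, hD, htk, hev, hk2, hE⟩ | ⟨D, hodd, hD, hDs, hE⟩ |
    ⟨r, K, hr, hrm, hK, hsa, halt, hE⟩ | ⟨K, hodd, hK, hcl, hns, hE⟩ |
    ⟨n₁, n₂, e, P, f₁, f₂, hodd, hn₂, hcn, hev, hn₁, hq5, hf₁, hf₂, hT, hE⟩ |
    ⟨k, t, e, P, f₁, hodd, htodd, ht3, hcn, hev, hne, hf₁, hT, hE⟩ |
    ⟨F₀, r, P, ζ, hr, hc, hζ, hrat, hE⟩ |
    ⟨R, p, k, hR, hRA, hRs, hp, hpo, hpc, hRc, hZc, hmin, h2k, hE⟩ |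
    ⟨Q, heven', hQ, hpol, hE⟩ | hres
  · exact Or.inl ⟨W, h0, hW, hE⟩
  · exact (Cfsg.Agent.Lib.CmaxS.Arith.nondeg_small (Cfsg.Agent.Lib.Geo.SpBase.isSymplecticForm_sympForm (F := F) 2) h0 hW (by omega)).elim
  · obtain ⟨rfl, rfl⟩ := Cfsg.Agent.Lib.CmaxS.Arith.tk_2 htk hev hD.decomp.two_le
    exact Or.inr <| Or.inl ⟨D, hD, hE⟩
  · exact absurd hodd heven
  · obtain rfl : r = 2 := (Nat.prime_dvd_prime_iff_eq hr Nat.prime_two).1 hrm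
    exact Or.inr <| Or.inr <| Or.inl ⟨K, hK, hsa, halt, hE⟩
  · exact absurd hodd heven
  · exact absurd hodd heven
  · exact absurd hodd heven
  · exact Or.inr <| Or.inr <| Or.inr <| Or.inl ⟨F₀, r, P, ζ, hr, hc, hζ, hrat, hE⟩
  · rw [hpc] at heven
    exact absurd hpo heven
  · exact Or.inr <| Or.inr <| Or.inr <| Or.inr <| Or.inl ⟨Q, hQ, hpol, hE⟩
  · exact Or.inr <| Or.inr <| Or.inr <| Or.inr <| Or.inr <| hres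

theorem s5805  {F : Type*} [Field F] [Fintype F] (H : Subgroup (Matrix.GeneralLinearGroup (Fin 3 ⊕ Fin 3) F)) (hH : Cfsg.Geo.IsMaximalIn (Cfsg.spGL 3 F) H)
    (hA : (∃ M, Cfsg.Geo.InSymplecticClass 3 F M ∧ H ≤ M) ∨ Cfsg.Geo.InSymplecticResidualClass H) :
    (∃ W : Submodule F (Fin 3 ⊕ Fin 3 → F), W ≠ ⊥ ∧ Cfsg.Geo.IsTotallySingularFor (Cfsg.sympForm 3 F) W ∧ H = Cfsg.Geo.subspaceStabilizer W ⊓ Cfsg.spGL 3 F) ∨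
    (∃ W : Submodule F (Fin 3 ⊕ Fin 3 → F), W ≠ ⊥ ∧ Cfsg.Geo.IsNondegenerateOn (Cfsg.sympForm 3 F) W ∧ Module.finrank F W < 3 ∧ H = Cfsg.Geo.subspaceStabilizer W ⊓ Cfsg.spGL 3 F) ∨
    (3 ≤ Fintype.card F ∧ ∃ D : Fin 3 → Submodule F (Fin 3 ⊕ Fin 3 → F), Cfsg.Geo.IsNondegenerateMDecomposition (Cfsg.sympForm 3 F) 2 D ∧ H = Cfsg.Geo.decompositionStabilizer D ⊓ Cfsg.spGL 3 F) ∨
    (Odd (Fintype.card F) ∧ ∃ D : Fin 2 → Submodule F (Fin 3 ⊕ Fin 3 → F), Cfsg.Geo.IsMDecomposition 3 D ∧ (∀ i, Cfsg.Geo.IsTotallySingularFor (Cfsg.sympForm 3 F) (D i)) ∧ H = Cfsg.Geo.decompositionStabilizer D ⊓ Cfsg.spGL 3 F) ∨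
    (∃ K : Subalgebra F (Matrix (Fin 3 ⊕ Fin 3) (Fin 3 ⊕ Fin 3) F), Cfsg.Geo.IsFieldSubalgebra 3 K ∧ Cfsg.Geo.IsSelfAdjointFor (Cfsg.sympForm 3 F) K ∧ (∀ k ∈ K, ∀ v : (Fin 3 ⊕ Fin 3 → F), (Cfsg.sympForm 3 F) (Matrix.mulVec k v) v = 0) ∧ H = Cfsg.Geo.subalgebraNormalizer K ⊓ Cfsg.spGL 3 F) ∨
    (Odd (Fintype.card F) ∧ ∃ K : Subalgebra F (Matrix (Fin 3 ⊕ Fin 3) (Fin 3 ⊕ Fin 3) F), Cfsg.Geo.IsFieldSubalgebra 2 K ∧ Cfsg.Geo.IsAdjointClosedFor (Cfsg.sympForm 3 F) K ∧ ¬ Cfsg.Geo.IsSelfAdjointFor (Cfsg.sympForm 3 F) K ∧ H = Cfsg.Geo.subalgebraNormalizer K ⊓ Cfsg.spGL 3 F) ∨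
    (Odd (Fintype.card F) ∧ 5 ≤ Fintype.card F ∧ ∃ (e : (Fin 3 ⊕ Fin 3) ≃ Fin 2 × Fin 3) (P : Matrix.GeneralLinearGroup (Fin 3 ⊕ Fin 3) F) (f₁ : (Fin 2 → F) → (Fin 2 → F) → F) (f₂ : (Fin 3 → F) → (Fin 3 → F) → F), Cfsg.Geo.IsSymplecticForm f₁ ∧ Cfsg.Geo.IsSymmetricForm f₂ ∧ Cfsg.Geo.IsTensorFormStructure id (Cfsg.sympForm 3 F) f₁ f₂ e P ∧ H = Cfsg.Geo.tensorProductSubgroup 2 3 e P ⊓ Cfsg.spGL 3 F) ∨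
    (∃ (F₀ : Subfield F) (r : ℕ) (P : Matrix.GeneralLinearGroup (Fin 3 ⊕ Fin 3) F) (ζ : F), r.Prime ∧ Fintype.card F = Nat.card F₀ ^ r ∧ ζ ≠ 0 ∧ Cfsg.Geo.IsFormRationalStructure (Cfsg.sympForm 3 F) F₀ ζ P ∧ H = Cfsg.Geo.subfieldSubgroup F₀ P ⊓ Cfsg.spGL 3 F) ∨
    (¬ Odd (Fintype.card F) ∧ ∃ Q : (Fin 3 ⊕ Fin 3 → F) → F, Cfsg.Geo.IsNondegenerateQuadraticForm Q ∧ (∀ u v : (Fin 3 ⊕ Fin 3 → F), QuadraticMap.polar Q u v = (Cfsg.sympForm 3 F) u v) ∧ H = Cfsg.Geo.quadSimilarityGroup Q ⊓ Cfsg.spGL 3 F) ∨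
    Cfsg.Geo.InSymplecticResidualClass H := by
  have hq : (3 : ℕ) = 2 → 3 ≤ Fintype.card F := fun h => by omega
  rcases Cfsg.Agent.Lib.CmaxS.Master.master (by norm_num) hq H hH hA with
    ⟨W, h0, hW, hE⟩ | ⟨W, h0, hW, hlt, hE⟩ | ⟨t, k, D, hD, htk, hev, hk2, hE⟩ | ⟨D, hodd, hD, hDs, hE⟩ |
    ⟨r, K, hr, hrm, hK, hsa, halt, hE⟩ | ⟨K, hodd, hK, hcl, hns, hE⟩ |
    ⟨n₁, n₂, e, P, f₁, f₂, hodd, hn₂, hcn, hev, hn₁, hq5, hf₁, hf₂, hT, hE⟩ |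
    ⟨k, t, e, P, f₁, hodd, htodd, ht3, hcn, hev, hne, hf₁, hT, hE⟩ |
    ⟨F₀, r, P, ζ, hr, hc, hζ, hrat, hE⟩ |
    ⟨R, p, k, hR, hRA, hRs, hp, hpo, hpc, hRc, hZc, hmin, h2k, hE⟩ |
    ⟨Q, heven', hQ, hpol, hE⟩ | hres
  · exact Or.inl ⟨W, h0, hW, hE⟩
  · exact Or.inr <| Or.inl ⟨W, h0, hW, hlt, hE⟩
  · obtain ⟨rfl, rfl⟩ := Cfsg.Agent.Lib.CmaxS.Arith.tk_3 htk hev hD.decomp.two_le
    exact Or.inr <| Or.inr <| Or.inl ⟨hk2 rfl, D, hD, hE⟩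
  · exact Or.inr <| Or.inr <| Or.inr <| Or.inl ⟨hodd, D, hD, hDs, hE⟩
  · obtain rfl : r = 3 := (Nat.prime_dvd_prime_iff_eq hr Nat.prime_three).1 hrm
    exact Or.inr <| Or.inr <| Or.inr <| Or.inr <| Or.inl ⟨K, hK, hsa, halt, hE⟩
  · exact Or.inr <| Or.inr <| Or.inr <| Or.inr <| Or.inr <| Or.inl ⟨hodd, K, hK, hcl, hns, hE⟩
  · obtain ⟨rfl, rfl⟩ := Cfsg.Agent.Lib.CmaxS.Arith.tens_3 hcn hev hn₁ hn₂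
    exact Or.inr <| Or.inr <| Or.inr <| Or.inr <| Or.inr <| Or.inr <| Or.inl ⟨hodd, hq5 rfl, e, P, f₁, f₂, hf₁, hf₂, hT, hE⟩
  · exact (Cfsg.Agent.Lib.CmaxS.Arith.wr_6 hcn hev ht3).elim
  · exact Or.inr <| Or.inr <| Or.inr <| Or.inr <| Or.inr <| Or.inr <| Or.inr <| Or.inl ⟨F₀, r, P, ζ, hr, hc, hζ, hrat, hE⟩
  · exact (Cfsg.Agent.Lib.CmaxS.Arith.pw_6 h2k).elim
  · exact Or.inr <| Or.inr <| Or.inr <| Or.inr <| Or.inr <| Or.inr <| Or.inr <| Or.inr <| Or.inl ⟨heven', Q, hQ, hpol, hE⟩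
  · exact Or.inr <| Or.inr <| Or.inr <| Or.inr <| Or.inr <| Or.inr <| Or.inr <| Or.inr <| Or.inr <| hres

theorem s5844  {F : Type*} [Field F] [Fintype F] (H : Subgroup (Matrix.GeneralLinearGroup (Fin 5 ⊕ Fin 5) F)) (hH : Cfsg.Geo.IsMaximalIn (Cfsg.spGL 5 F) H)
    (hA : (∃ M, Cfsg.Geo.InSymplecticClass 5 F M ∧ H ≤ M) ∨ Cfsg.Geo.InSymplecticResidualClass H) :
    (∃ W : Submodule F (Fin 5 ⊕ Fin 5 → F), W ≠ ⊥ ∧ Cfsg.Geo.IsTotallySingularFor (Cfsg.sympForm 5 F) W ∧ H = Cfsg.Geo.subspaceStabilizer W ⊓ Cfsg.spGL 5 F) ∨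
    (∃ W : Submodule F (Fin 5 ⊕ Fin 5 → F), W ≠ ⊥ ∧ Cfsg.Geo.IsNondegenerateOn (Cfsg.sympForm 5 F) W ∧ Module.finrank F W < 5 ∧ H = Cfsg.Geo.subspaceStabilizer W ⊓ Cfsg.spGL 5 F) ∨
    (3 ≤ Fintype.card F ∧ ∃ D : Fin 5 → Submodule F (Fin 5 ⊕ Fin 5 → F), Cfsg.Geo.IsNondegenerateMDecomposition (Cfsg.sympForm 5 F) 2 D ∧ H = Cfsg.Geo.decompositionStabilizer D ⊓ Cfsg.spGL 5 F) ∨
    (Odd (Fintype.card F) ∧ ∃ D : Fin 2 → Submodule F (Fin 5 ⊕ Fin 5 → F), Cfsg.Geo.IsMDecomposition 5 D ∧ (∀ i, Cfsg.Geo.IsTotallySingularFor (Cfsg.sympForm 5 F) (D i)) ∧ H = Cfsg.Geo.decompositionStabilizer D ⊓ Cfsg.spGL 5 F) ∨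
    (∃ K : Subalgebra F (Matrix (Fin 5 ⊕ Fin 5) (Fin 5 ⊕ Fin 5) F), Cfsg.Geo.IsFieldSubalgebra 5 K ∧ Cfsg.Geo.IsSelfAdjointFor (Cfsg.sympForm 5 F) K ∧ (∀ k ∈ K, ∀ v : (Fin 5 ⊕ Fin 5 → F), (Cfsg.sympForm 5 F) (Matrix.mulVec k v) v = 0) ∧ H = Cfsg.Geo.subalgebraNormalizer K ⊓ Cfsg.spGL 5 F) ∨
    (Odd (Fintype.card F) ∧ ∃ K : Subalgebra F (Matrix (Fin 5 ⊕ Fin 5) (Fin 5 ⊕ Fin 5) F), Cfsg.Geo.IsFieldSubalgebra 2 K ∧ Cfsg.Geo.IsAdjointClosedFor (Cfsg.sympForm 5 F) K ∧ ¬ Cfsg.Geo.IsSelfAdjointFor (Cfsg.sympForm 5 F) K ∧ H = Cfsg.Geo.subalgebraNormalizer K ⊓ Cfsg.spGL 5 F) ∨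
    (Odd (Fintype.card F) ∧ ∃ (e : (Fin 5 ⊕ Fin 5) ≃ Fin 2 × Fin 5) (P : Matrix.GeneralLinearGroup (Fin 5 ⊕ Fin 5) F) (f₁ : (Fin 2 → F) → (Fin 2 → F) → F) (f₂ : (Fin 5 → F) → (Fin 5 → F) → F), Cfsg.Geo.IsSymplecticForm f₁ ∧ Cfsg.Geo.IsSymmetricForm f₂ ∧ Cfsg.Geo.IsTensorFormStructure id (Cfsg.sympForm 5 F) f₁ f₂ e P ∧ H = Cfsg.Geo.tensorProductSubgroup 2 5 e P ⊓ Cfsg.spGL 5 F) ∨
    (∃ (F₀ : Subfield F) (r : ℕ) (P : Matrix.GeneralLinearGroup (Fin 5 ⊕ Fin 5) F) (ζ : F), r.Prime ∧ Fintype.card F = Nat.card F₀ ^ r ∧ ζ ≠ 0 ∧ Cfsg.Geo.IsFormRationalStructure (Cfsg.sympForm 5 F) F₀ ζ P ∧ H = Cfsg.Geo.subfieldSubgroup F₀ P ⊓ Cfsg.spGL 5 F) ∨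
    (¬ Odd (Fintype.card F) ∧ ∃ Q : (Fin 5 ⊕ Fin 5 → F) → F, Cfsg.Geo.IsNondegenerateQuadraticForm Q ∧ (∀ u v : (Fin 5 ⊕ Fin 5 → F), QuadraticMap.polar Q u v = (Cfsg.sympForm 5 F) u v) ∧ H = Cfsg.Geo.quadSimilarityGroup Q ⊓ Cfsg.spGL 5 F) ∨
    Cfsg.Geo.InSymplecticResidualClass H := by
  have hq : (5 : ℕ) = 2 → 3 ≤ Fintype.card F := fun h => by omega
  rcases Cfsg.Agent.Lib.CmaxS.Master.master (by norm_num) hq H hH hA with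
    ⟨W, h0, hW, hE⟩ | ⟨W, h0, hW, hlt, hE⟩ | ⟨t, k, D, hD, htk, hev, hk2, hE⟩ | ⟨D, hodd, hD, hDs, hE⟩ |
    ⟨r, K, hr, hrm, hK, hsa, halt, hE⟩ | ⟨K, hodd, hK, hcl, hns, hE⟩ |
    ⟨n₁, n₂, e, P, f₁, f₂, hodd, hn₂, hcn, hev, hn₁, hq5, hf₁, hf₂, hT, hE⟩ |
    ⟨k, t, e, P, f₁, hodd, htodd, ht3, hcn, hev, hne, hf₁, hT, hE⟩ |
    ⟨F₀, r, P, ζ, hr, hc, hζ, hrat, hE⟩ |
    ⟨R, p, k, hR, hRA, hRs, hp, hpo, hpc, hRc, hZc, hmin, h2k, hE⟩ |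
    ⟨Q, heven', hQ, hpol, hE⟩ | hres
  · exact Or.inl ⟨W, h0, hW, hE⟩
  · exact Or.inr <| Or.inl ⟨W, h0, hW, hlt, hE⟩
  · obtain ⟨rfl, rfl⟩ := Cfsg.Agent.Lib.CmaxS.Arith.tk_5 htk hev hD.decomp.two_le
    exact Or.inr <| Or.inr <| Or.inl ⟨hk2 rfl, D, hD, hE⟩
  · exact Or.inr <| Or.inr <| Or.inr <| Or.inl ⟨hodd, D, hD, hDs, hE⟩
  · obtain rfl : r = 5 := (Nat.prime_dvd_prime_iff_eq hr Nat.prime_five).1 hrm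
    exact Or.inr <| Or.inr <| Or.inr <| Or.inr <| Or.inl ⟨K, hK, hsa, halt, hE⟩
  · exact Or.inr <| Or.inr <| Or.inr <| Or.inr <| Or.inr <| Or.inl ⟨hodd, K, hK, hcl, hns, hE⟩
  · obtain ⟨rfl, rfl⟩ := Cfsg.Agent.Lib.CmaxS.Arith.tens_5 hcn hev hn₁ hn₂
    exact Or.inr <| Or.inr <| Or.inr <| Or.inr <| Or.inr <| Or.inr <| Or.inl ⟨hodd, e, P, f₁, f₂, hf₁, hf₂, hT, hE⟩
  · exact (Cfsg.Agent.Lib.CmaxS.Arith.wr_10 hcn hev ht3).elim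
  · exact Or.inr <| Or.inr <| Or.inr <| Or.inr <| Or.inr <| Or.inr <| Or.inr <| Or.inl ⟨F₀, r, P, ζ, hr, hc, hζ, hrat, hE⟩
  · exact (Cfsg.Agent.Lib.CmaxS.Arith.pw_10 h2k).elim
  · exact Or.inr <| Or.inr <| Or.inr <| Or.inr <| Or.inr <| Or.inr <| Or.inr <| Or.inr <| Or.inl ⟨heven', Q, hQ, hpol, hE⟩
  · exact Or.inr <| Or.inr <| Or.inr <| Or.inr <| Or.inr <| Or.inr <| Or.inr <| Or.inr <| Or.inr <| hres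

theorem s5868  {F : Type*} [Field F] [Fintype F] (H : Subgroup (Matrix.GeneralLinearGroup (Fin 6 ⊕ Fin 6) F)) (hH : Cfsg.Geo.IsMaximalIn (Cfsg.spGL 6 F) H)
    (hA : (∃ M, Cfsg.Geo.InSymplecticClass 6 F M ∧ H ≤ M) ∨ Cfsg.Geo.InSymplecticResidualClass H) :
    (∃ W : Submodule F (Fin 6 ⊕ Fin 6 → F), W ≠ ⊥ ∧ Cfsg.Geo.IsTotallySingularFor (Cfsg.sympForm 6 F) W ∧ H = Cfsg.Geo.subspaceStabilizer W ⊓ Cfsg.spGL 6 F) ∨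
    (∃ W : Submodule F (Fin 6 ⊕ Fin 6 → F), W ≠ ⊥ ∧ Cfsg.Geo.IsNondegenerateOn (Cfsg.sympForm 6 F) W ∧ Module.finrank F W < 6 ∧ H = Cfsg.Geo.subspaceStabilizer W ⊓ Cfsg.spGL 6 F) ∨
    (3 ≤ Fintype.card F ∧ ∃ D : Fin 6 → Submodule F (Fin 6 ⊕ Fin 6 → F), Cfsg.Geo.IsNondegenerateMDecomposition (Cfsg.sympForm 6 F) 2 D ∧ H = Cfsg.Geo.decompositionStabilizer D ⊓ Cfsg.spGL 6 F) ∨
    (∃ D : Fin 3 → Submodule F (Fin 6 ⊕ Fin 6 → F), Cfsg.Geo.IsNondegenerateMDecomposition (Cfsg.sympForm 6 F) 4 D ∧ H = Cfsg.Geo.decompositionStabilizer D ⊓ Cfsg.spGL 6 F) ∨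
    (∃ D : Fin 2 → Submodule F (Fin 6 ⊕ Fin 6 → F), Cfsg.Geo.IsNondegenerateMDecomposition (Cfsg.sympForm 6 F) 6 D ∧ H = Cfsg.Geo.decompositionStabilizer D ⊓ Cfsg.spGL 6 F) ∨
    (Odd (Fintype.card F) ∧ ∃ D : Fin 2 → Submodule F (Fin 6 ⊕ Fin 6 → F), Cfsg.Geo.IsMDecomposition 6 D ∧ (∀ i, Cfsg.Geo.IsTotallySingularFor (Cfsg.sympForm 6 F) (D i)) ∧ H = Cfsg.Geo.decompositionStabilizer D ⊓ Cfsg.spGL 6 F) ∨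
    (∃ K : Subalgebra F (Matrix (Fin 6 ⊕ Fin 6) (Fin 6 ⊕ Fin 6) F), Cfsg.Geo.IsFieldSubalgebra 2 K ∧ Cfsg.Geo.IsSelfAdjointFor (Cfsg.sympForm 6 F) K ∧ (∀ k ∈ K, ∀ v : (Fin 6 ⊕ Fin 6 → F), (Cfsg.sympForm 6 F) (Matrix.mulVec k v) v = 0) ∧ H = Cfsg.Geo.subalgebraNormalizer K ⊓ Cfsg.spGL 6 F) ∨
    (∃ K : Subalgebra F (Matrix (Fin 6 ⊕ Fin 6) (Fin 6 ⊕ Fin 6) F), Cfsg.Geo.IsFieldSubalgebra 3 K ∧ Cfsg.Geo.IsSelfAdjointFor (Cfsg.sympForm 6 F) K ∧ (∀ k ∈ K, ∀ v : (Fin 6 ⊕ Fin 6 → F), (Cfsg.sympForm 6 F) (Matrix.mulVec k v) v = 0) ∧ H = Cfsg.Geo.subalgebraNormalizer K ⊓ Cfsg.spGL 6 F) ∨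
    (Odd (Fintype.card F) ∧ ∃ K : Subalgebra F (Matrix (Fin 6 ⊕ Fin 6) (Fin 6 ⊕ Fin 6) F), Cfsg.Geo.IsFieldSubalgebra 2 K ∧ Cfsg.Geo.IsAdjointClosedFor (Cfsg.sympForm 6 F) K ∧ ¬ Cfsg.Geo.IsSelfAdjointFor (Cfsg.sympForm 6 F) K ∧ H = Cfsg.Geo.subalgebraNormalizer K ⊓ Cfsg.spGL 6 F) ∨
    (Odd (Fintype.card F) ∧ ∃ (e : (Fin 6 ⊕ Fin 6) ≃ Fin 2 × Fin 6) (P : Matrix.GeneralLinearGroup (Fin 6 ⊕ Fin 6) F) (f₁ : (Fin 2 → F) → (Fin 2 → F) → F) (f₂ : (Fin 6 → F) → (Fin 6 → F) → F), Cfsg.Geo.IsSymplecticForm f₁ ∧ Cfsg.Geo.IsSymmetricForm f₂ ∧ Cfsg.Geo.IsTensorFormStructure id (Cfsg.sympForm 6 F) f₁ f₂ e P ∧ H = Cfsg.Geo.tensorProductSubgroup 2 6 e P ⊓ Cfsg.spGL 6 F) ∨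
    (Odd (Fintype.card F) ∧ 5 ≤ Fintype.card F ∧ ∃ (e : (Fin 6 ⊕ Fin 6) ≃ Fin 4 × Fin 3) (P : Matrix.GeneralLinearGroup (Fin 6 ⊕ Fin 6) F) (f₁ : (Fin 4 → F) → (Fin 4 → F) → F) (f₂ : (Fin 3 → F) → (Fin 3 → F) → F), Cfsg.Geo.IsSymplecticForm f₁ ∧ Cfsg.Geo.IsSymmetricForm f₂ ∧ Cfsg.Geo.IsTensorFormStructure id (Cfsg.sympForm 6 F) f₁ f₂ e P ∧ H = Cfsg.Geo.tensorProductSubgroup 4 3 e P ⊓ Cfsg.spGL 6 F) ∨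
    (∃ (F₀ : Subfield F) (r : ℕ) (P : Matrix.GeneralLinearGroup (Fin 6 ⊕ Fin 6) F) (ζ : F), r.Prime ∧ Fintype.card F = Nat.card F₀ ^ r ∧ ζ ≠ 0 ∧ Cfsg.Geo.IsFormRationalStructure (Cfsg.sympForm 6 F) F₀ ζ P ∧ H = Cfsg.Geo.subfieldSubgroup F₀ P ⊓ Cfsg.spGL 6 F) ∨
    (¬ Odd (Fintype.card F) ∧ ∃ Q : (Fin 6 ⊕ Fin 6 → F) → F, Cfsg.Geo.IsNondegenerateQuadraticForm Q ∧ (∀ u v : (Fin 6 ⊕ Fin 6 → F), QuadraticMap.polar Q u v = (Cfsg.sympForm 6 F) u v) ∧ H = Cfsg.Geo.quadSimilarityGroup Q ⊓ Cfsg.spGL 6 F) ∨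
    Cfsg.Geo.InSymplecticResidualClass H := by
  have hq : (6 : ℕ) = 2 → 3 ≤ Fintype.card F := fun h => by omega
  rcases Cfsg.Agent.Lib.CmaxS.Master.master (by norm_num) hq H hH hA with
    ⟨W, h0, hW, hE⟩ | ⟨W, h0, hW, hlt, hE⟩ | ⟨t, k, D, hD, htk, hev, hk2, hE⟩ | ⟨D, hodd, hD, hDs, hE⟩ |
    ⟨r, K, hr, hrm, hK, hsa, halt, hE⟩ | ⟨K, hodd, hK, hcl, hns, hE⟩ |
    ⟨n₁, n₂, e, P, f₁, f₂, hodd, hn₂, hcn, hev, hn₁, hq5, hf₁, hf₂, hT, hE⟩ |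
    ⟨k, t, e, P, f₁, hodd, htodd, ht3, hcn, hev, hne, hf₁, hT, hE⟩ |
    ⟨F₀, r, P, ζ, hr, hc, hζ, hrat, hE⟩ |
    ⟨R, p, k, hR, hRA, hRs, hp, hpo, hpc, hRc, hZc, hmin, h2k, hE⟩ |
    ⟨Q, heven', hQ, hpol, hE⟩ | hres
  · exact Or.inl ⟨W, h0, hW, hE⟩
  · exact Or.inr <| Or.inl ⟨W, h0, hW, hlt, hE⟩
  · rcases Cfsg.Agent.Lib.CmaxS.Arith.tk_6 htk hev hD.decomp.two_le with ⟨rfl, rfl⟩ | ⟨rfl, rfl⟩ | ⟨rfl, rfl⟩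
    · exact Or.inr <| Or.inr <| Or.inl ⟨hk2 rfl, D, hD, hE⟩
    · exact Or.inr <| Or.inr <| Or.inr <| Or.inl ⟨D, hD, hE⟩
    · exact Or.inr <| Or.inr <| Or.inr <| Or.inr <| Or.inl ⟨D, hD, hE⟩
  · exact Or.inr <| Or.inr <| Or.inr <| Or.inr <| Or.inr <| Or.inl ⟨hodd, D, hD, hDs, hE⟩
  · rcases Cfsg.Agent.Lib.CmaxS.Arith.prime_dvd_six hr hrm with rfl | rfl
    · exact Or.inr <| Or.inr <| Or.inr <| Or.inr <| Or.inr <| Or.inr <| Or.inl ⟨K, hK, hsa, halt, hE⟩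
    · exact Or.inr <| Or.inr <| Or.inr <| Or.inr <| Or.inr <| Or.inr <| Or.inr <| Or.inl ⟨K, hK, hsa, halt, hE⟩
  · exact Or.inr <| Or.inr <| Or.inr <| Or.inr <| Or.inr <| Or.inr <| Or.inr <| Or.inr <| Or.inl ⟨hodd, K, hK, hcl, hns, hE⟩
  · rcases Cfsg.Agent.Lib.CmaxS.Arith.tens_6 hcn hev hn₁ hn₂ with ⟨rfl, rfl⟩ | ⟨rfl, rfl⟩
    · exact Or.inr <| Or.inr <| Or.inr <| Or.inr <| Or.inr <| Or.inr <| Or.inr <| Or.inr <| Or.inr <| Or.inl ⟨hodd, e, P, f₁, f₂, hf₁, hf₂, hT, hE⟩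
    · exact Or.inr <| Or.inr <| Or.inr <| Or.inr <| Or.inr <| Or.inr <| Or.inr <| Or.inr <| Or.inr <| Or.inr <| Or.inl ⟨hodd, hq5 rfl, e, P, f₁, f₂, hf₁, hf₂, hT, hE⟩
  · exact (Cfsg.Agent.Lib.CmaxS.Arith.wr_12 hcn hev ht3).elim
  · exact Or.inr <| Or.inr <| Or.inr <| Or.inr <| Or.inr <| Or.inr <| Or.inr <| Or.inr <| Or.inr <| Or.inr <| Or.inr <| Or.inl ⟨F₀, r, P, ζ, hr, hc, hζ, hrat, hE⟩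
  · exact (Cfsg.Agent.Lib.CmaxS.Arith.pw_12 h2k).elim
  · exact Or.inr <| Or.inr <| Or.inr <| Or.inr <| Or.inr <| Or.inr <| Or.inr <| Or.inr <| Or.inr <| Or.inr <| Or.inr <| Or.inr <| Or.inl ⟨heven', Q, hQ, hpol, hE⟩
  · exact Or.inr <| Or.inr <| Or.inr <| Or.inr <| Or.inr <| Or.inr <| Or.inr <| Or.inr <| Or.inr <| Or.inr <| Or.inr <| Or.inr <| Or.inr <| hres

end Cfsg.Agent.Lib.CmaxS.Rows
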